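import Cfsg.Agent.Lib.SchurMult.PlusEight.Engine
import Cfsg.Agent.Lib.SchurMult.PlusEight.DataA
import Cfsg.Agent.Lib.SchurMult.PlusEight.DataB
import Cfsg.Agent.Lib.SchurMult.PlusEight.DataC

/-! The linear checks of the certificates for the prime two. -/

set_option autoImplicit false
set_option maxRecDepth 100000

namespace Cfsg.Agent.Lib.SchurMult.PlusEight

/-- The first distinguished pair. -/
def pairA : List ℕ × List ℕ × List ℕ × List ℕ := ([0], [6, 9], [], [])

/-- The second distinguished pair. -/
def pairB : List ℕ × List ℕ × List ℕ × List ℕ := ([0], [5], [], [])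

/-- The two pairs together. -/
def pairC : List ℕ × List ℕ × List ℕ × List ℕ := ([0], [6, 9], [0], [5])

theorem eqnA : dataA.eqs.all (eqnOK gensTwo conjTwo pairA) = true := by decide +kernel

theorem eqnB : dataB.eqs.all (eqnOK gensTwo conjTwo pairB) = true := by decide +kernel

theorem eqnC : dataC.eqs.all (eqnOK gensTwo conjTwo pairC) = true := by decide +kernel

end Cfsg.Agent.Lib.SchurMult.PlusEight
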