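import Cfsg.Agent.Lib.SchurMult.PlusEight.Engine
import Cfsg.Agent.Lib.SchurMult.PlusEight.DataA

/-! The relations and keys of the Sylow subgroup for the prime two. -/

set_option autoImplicit false
set_option maxRecDepth 100000

namespace Cfsg.Agent.Lib.SchurMult.PlusEight

theorem relPart0 : relOK dataA gensTwo 0 13 = true := by decide +kernel

theorem relPart1 : relOK dataA gensTwo 13 13 = true := by decide +kernel

theorem relPart2 : relOK dataA gensTwo 26 13 = true := by decide +kernel

theorem relPart3 : relOK dataA gensTwo 39 13 = true := by decide +kernel

theorem relPart4 : relOK dataA gensTwo 52 13 = true := by decide +kernel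

theorem relPart5 : relOK dataA gensTwo 65 13 = true := by decide +kernel

theorem relParts : ∀ i < 6, relOK dataA gensTwo (13 * i) 13 = true := by
  intro i hi
  interval_cases i
  · exact relPart0
  · exact relPart1
  · exact relPart2
  · exact relPart3
  · exact relPart4
  · exact relPart5

theorem keyPart0 : keyOK dataA gensTwo sortedTwo keysTwo 0 256 = true := by decide +kernel

theorem keyPart1 : keyOK dataA gensTwo sortedTwo keysTwo 256 256 = true := by decide +kernel

theorem keyPart2 : keyOK dataA gensTwo sortedTwo keysTwo 512 256 = true := by decide +kernel

theorem keyPart3 : keyOK dataA gensTwo sortedTwo keysTwo 768 256 = true := by decide +kernel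

theorem keyPart4 : keyOK dataA gensTwo sortedTwo keysTwo 1024 256 = true := by decide +kernel

theorem keyPart5 : keyOK dataA gensTwo sortedTwo keysTwo 1280 256 = true := by decide +kernel

theorem keyPart6 : keyOK dataA gensTwo sortedTwo keysTwo 1536 256 = true := by decide +kernel

theorem keyPart7 : keyOK dataA gensTwo sortedTwo keysTwo 1792 256 = true := by decide +kernel

theorem keyPart8 : keyOK dataA gensTwo sortedTwo keysTwo 2048 256 = true := by decide +kernel

theorem keyPart9 : keyOK dataA gensTwo sortedTwo keysTwo 2304 256 = true := by decide +kernel

theorem keyPart10 : keyOK dataA gensTwo sortedTwo keysTwo 2560 256 = true := by decide +kernel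

theorem keyPart11 : keyOK dataA gensTwo sortedTwo keysTwo 2816 256 = true := by decide +kernel

theorem keyPart12 : keyOK dataA gensTwo sortedTwo keysTwo 3072 256 = true := by decide +kernel

theorem keyPart13 : keyOK dataA gensTwo sortedTwo keysTwo 3328 256 = true := by decide +kernel

theorem keyPart14 : keyOK dataA gensTwo sortedTwo keysTwo 3584 256 = true := by decide +kernel

theorem keyPart15 : keyOK dataA gensTwo sortedTwo keysTwo 3840 256 = true := by decide +kernel

theorem keyParts : ∀ i < 16, keyOK dataA gensTwo sortedTwo keysTwo (256 * i) 256 = true := by
  intro i hi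
  interval_cases i
  · exact keyPart0
  · exact keyPart1
  · exact keyPart2
  · exact keyPart3
  · exact keyPart4
  · exact keyPart5
  · exact keyPart6
  · exact keyPart7
  · exact keyPart8
  · exact keyPart9
  · exact keyPart10
  · exact keyPart11
  · exact keyPart12
  · exact keyPart13
  · exact keyPart14
  · exact keyPart15

theorem sortTwo : sortOK dataA sortedTwo keysTwo = true := by decide +kernel

end Cfsg.Agent.Lib.SchurMult.PlusEight
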