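import Cfsg.Agent.Lib.OrthChev.PlusFour
import Cfsg.Agent.Lib.SchurMult.PlusEight.CoverData
import Cfsg.Prelude.Def_Classical

/-!
Reflections of the orthogonal space of plus type and dimension eight over two elements, acting on bit vectors.
-/

set_option autoImplicit false
set_option maxRecDepth 100000

namespace Cfsg.Agent.Lib.SchurMult.PlusEight

open Cfsg Cfsg.Agent.Lib Matrix
open scoped commutatorElement

/-- The coordinates. -/
abbrev Ix := Fin 4 ⊕ Fin 4

/-- The quadratic form. -/
abbrev Qf : (Ix → ZMod 2) → ZMod 2 := Cfsg.quadFormPlus 4 (ZMod 2)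

/-- The isometry group. -/
abbrev Ort := ↥(Cfsg.isometryGroup (ZMod 2) Qf)

/-- The derived group. -/
abbrev Om := ↥(Cfsg.Omega (ZMod 2) Qf)

/-- The simple group. -/
abbrev Q := Cfsg.POmega (ZMod 2) Qf

/-- The position of a coordinate. -/
def pos : Ix → ℕ := Sum.elim (fun i => i.1) (fun i => i.1 + 4)

/-- A bit of a code. -/
def bit (x i : ℕ) : ℕ := x / 2 ^ i % 2

/-- The vector of a bit code. -/
def bits (x : ℕ) : Ix → ZMod 2 := fun i => (bit x (pos i) : ℕ)

/-- The pairing of two bit codes. -/
def pair (x y : ℕ) : ℕ :=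
  (bit x 0 * bit y 4 + bit x 1 * bit y 5 + bit x 2 * bit y 6 + bit x 3 * bit y 7 +
    (bit x 4 * bit y 0 + bit x 5 * bit y 1 + bit x 6 * bit y 2 + bit x 7 * bit y 3)) % 2

/-- The quadratic form on bit codes. -/
def qf (x : ℕ) : ℕ := (bit x 0 * bit x 4 + bit x 1 * bit x 5 + bit x 2 * bit x 6 + bit x 3 * bit x 7) % 2

/-- A code of a nonsingular vector. -/
def good (v : ℕ) : Bool := Nat.blt v 256 && Nat.beq (qf v) 1

/-- The reflection of a code applied to a code. -/
def act (v x : ℕ) : ℕ := bif Nat.beq (pair x v) 1 then x ^^^ v else x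

/-- The matrix of a reflection. -/
def refMat (v : ℕ) : Matrix Ix Ix (ZMod 2) := 1 + vecMulVec (bits v) fun i => bits v (Sum.swap i)

theorem bit_xor (x v i : ℕ) : bit (x ^^^ v) i = (bit x i + bit v i) % 2 := by
  have h : ∀ y, bit y i = (y.testBit i).toNat := fun y => by
    rw [bit, Nat.toNat_testBit]
  rw [h, h, h, Nat.testBit_xor]
  cases x.testBit i <;> cases v.testBit i <;> rfl

theorem bits_xor (x v : ℕ) : bits (x ^^^ v) = bits x + bits v := by
  funext i
  simp only [bits, Pi.add_apply, bit_xor, ZMod.natCast_mod, Nat.cast_add]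

theorem dot_eq (v x : ℕ) : (fun i => bits v (Sum.swap i)) ⬝ᵥ bits x = (pair x v : ℕ) := by
  simp only [dotProduct, Fintype.sum_sum_type, Fin.sum_univ_four, pair, ZMod.natCast_mod]
  simp [bits, pos]
  ring

theorem refMat_mulVec (v x : ℕ) : refMat v *ᵥ bits x = bits (act v x) := by
  rw [refMat, Matrix.add_mulVec, one_mulVec, vecMulVec_mulVec, dot_eq]
  have h : pair x v = 0 ∨ pair x v = 1 := by
    have : pair x v < 2 := Nat.mod_lt _ (by norm_num)
    omega
  unfold act
  rcases h with h | h
  · rw [h, show Nat.beq 0 1 = false from rfl, cond_false]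
    simp
  · rw [h, show Nat.beq 1 1 = true from rfl, cond_true, bits_xor]
    simp

theorem act_lt {v x : ℕ} (hv : v < 256) (hx : x < 256) : act v x < 256 := by
  unfold act
  cases Nat.beq (pair x v) 1
  · exact hx
  · exact Nat.xor_lt_two_pow (n := 8) hx hv

theorem bits_surj (f : Ix → ZMod 2) : ∃ x < 256, bits x = f := by
  have h : ∀ f : Ix → ZMod 2, ((f (.inl 0)).val + 2 * (f (.inl 1)).val + 4 * (f (.inl 2)).val +
      8 * (f (.inl 3)).val + 16 * (f (.inr 0)).val + 32 * (f (.inr 1)).val + 64 * (f (.inr 2)).val +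
      128 * (f (.inr 3)).val) < 256 := fun f => by
    have := ZMod.val_lt (f (.inl 0)); have := ZMod.val_lt (f (.inl 1)); have := ZMod.val_lt (f (.inl 2))
    have := ZMod.val_lt (f (.inl 3)); have := ZMod.val_lt (f (.inr 0)); have := ZMod.val_lt (f (.inr 1))
    have := ZMod.val_lt (f (.inr 2)); have := ZMod.val_lt (f (.inr 3))
    omega
  refine ⟨_, h f, ?_⟩
  funext i
  have hb : ∀ a b c d e g j k : ZMod 2, ∀ i, bits (a.val + 2 * b.val + 4 * c.val + 8 * d.val + 16 * e.val +
      32 * g.val + 64 * j.val + 128 * k.val) i = Sum.elim ![a, b, c, d] ![e, g, j, k] i := by decide +kernel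
  rw [hb]
  rcases i with i | i <;> fin_cases i <;> rfl

theorem bits_inj : ∀ x < 256, ∀ y < 256, bits x = bits y → x = y := by
  intro x hx y hy h
  have hb : ∀ i : Ix, bit x (pos i) = bit y (pos i) := fun i => by
    have hlt : ∀ z, bit z (pos i) < 2 := fun z => Nat.mod_lt _ (by norm_num)
    have := congrArg ZMod.val (congrFun h i)
    simpa [bits, ZMod.val_natCast, Nat.mod_eq_of_lt, hlt] using this
  have := hb (.inl 0); have := hb (.inl 1); have := hb (.inl 2); have := hb (.inl 3)
  have := hb (.inr 0); have := hb (.inr 1); have := hb (.inr 2); have := hb (.inr 3)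
  simp only [bit, pos, Sum.elim_inl, Sum.elim_inr, Fin.val_zero, Fin.val_one, Fin.val_two] at *
  norm_num at *
  omega

theorem qf_spec : ∀ x < 256, Qf (bits x) = (qf x : ℕ) := by decide +kernel

theorem act_qf : ∀ v < 256, qf v = 1 → ∀ x < 256, qf (act v x) = qf x := by decide +kernel

theorem good_iff {v : ℕ} : good v = true ↔ v < 256 ∧ qf v = 1 := by simp [good]

theorem refMat_sq {v : ℕ} (hv : good v = true) : refMat v * refMat v = 1 := by
  refine Matrix.ext_of_mulVec_single fun i => ?_
  obtain ⟨x, hx, e⟩ := bits_surj (Pi.single i 1)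
  rw [← e, ← mulVec_mulVec, refMat_mulVec, refMat_mulVec, one_mulVec]
  congr 1
  have h : ∀ v < 256, qf v = 1 → ∀ x < 256, act v (act v x) = x := by decide +kernel
  exact h v (good_iff.1 hv).1 (good_iff.1 hv).2 x hx

/-- The reflection of a code. -/
def rf (v : ℕ) : Ort :=
  if h : good v = true then
    ⟨⟨refMat v, refMat v, refMat_sq h, refMat_sq h⟩, OrthChev.mem_iso_iff.2 fun f => by
      obtain ⟨x, hx, rfl⟩ := bits_surj f
      show Qf (refMat v *ᵥ bits x) = Qf (bits x)
      rw [refMat_mulVec, qf_spec _ hx, qf_spec _ (act_lt (good_iff.1 h).1 hx),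
        act_qf v (good_iff.1 h).1 (good_iff.1 h).2 x hx]⟩
  else 1

/-- The action of an isometry on codes. -/
def Moves (g : Ort) (f : ℕ → ℕ) : Prop :=
  ∀ x < 256, f x < 256 ∧ (g.1.1 : Matrix Ix Ix (ZMod 2)) *ᵥ bits x = bits (f x)

theorem moves_one : Moves 1 id := fun x hx => ⟨hx, by simp⟩

theorem moves_mul {g h : Ort} {f k : ℕ → ℕ} (hg : Moves g f) (hh : Moves h k) : Moves (g * h) (f ∘ k) :=
  fun x hx => ⟨(hg _ (hh x hx).1).1, by
    rw [Subgroup.coe_mul, Units.val_mul, ← mulVec_mulVec, (hh x hx).2, (hg _ (hh x hx).1).2]; rfl⟩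

theorem moves_rf {v : ℕ} (hv : good v = true) : Moves (rf v) (act v) := fun x hx =>
  ⟨act_lt (good_iff.1 hv).1 hx, by rw [rf, dif_pos hv]; exact refMat_mulVec v x⟩

theorem ort_ext {g h : Ort} {f k : ℕ → ℕ} (hg : Moves g f) (hh : Moves h k)
    (e : ∀ i : Ix, f (2 ^ pos i) = k (2 ^ pos i)) : g = h := by
  refine Subtype.ext (Units.ext (Matrix.ext_of_mulVec_single fun i => ?_))
  have hs : bits (2 ^ pos i) = Pi.single i 1 := by revert i; decide +kernel
  have hlt : 2 ^ pos i < 256 := by revert i; decide
  rw [← hs, (hg _ hlt).2, (hh _ hlt).2, e]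

theorem moves_congr {g : Ort} {f k : ℕ → ℕ} (hf : Moves g f) (hk : Moves g k) {x : ℕ} (hx : x < 256) :
    f x = k x :=
  bits_inj _ (hf x hx).1 _ (hk x hx).1 ((hf x hx).2.symm.trans (hk x hx).2)

theorem rf_sq (v : ℕ) : rf v * rf v = 1 := by
  by_cases hv : good v = true
  · refine Subtype.ext (Units.ext ?_)
    rw [rf, dif_pos hv]
    exact refMat_sq hv
  · rw [rf, dif_neg hv, one_mul]

/-- A test on all codes of nonsingular vectors. -/
def allGood (f : ℕ → Bool) : Bool := (List.range 256).all fun v => !good v || f v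

theorem allGood_spec {f : ℕ → Bool} (h : allGood f = true) {v : ℕ} (hv : good v = true) : f v = true := by
  have := List.all_eq_true.1 h v (List.mem_range.2 (good_iff.1 hv).1)
  simpa [hv] using this

theorem conj_check : allGood (fun u => allGood fun w =>
    good (act u w) && (List.range 8).all fun i =>
      Nat.beq (act u (act w (act u (2 ^ i)))) (act (act u w) (2 ^ i))) = true := by
  decide +kernel

theorem conj_check' {u w : ℕ} (hu : good u = true) (hw : good w = true) :
    good (act u w) = true ∧ ∀ i < 8, act u (act w (act u (2 ^ i))) = act (act u w) (2 ^ i) := by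
  have h := allGood_spec (allGood_spec conj_check hu) hw
  simp only [Bool.and_eq_true, List.all_eq_true, List.mem_range, Nat.beq_eq] at h
  exact h

attribute [local irreducible] rf act

theorem rf_conj {u w : ℕ} (hu : good u = true) (hw : good w = true) :
    rf u * rf w * (rf u)⁻¹ = rf (act u w) := by
  rw [inv_eq_of_mul_eq_one_right (rf_sq u)]
  obtain ⟨h1, h2⟩ := conj_check' hu hw
  have hm : Moves (rf u * rf w * rf u) ((act u ∘ act w) ∘ act u) :=
    moves_mul (moves_mul (moves_rf hu) (moves_rf hw)) (moves_rf hu)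
  refine ort_ext hm (moves_rf h1) fun i => ?_
  have hp : pos i < 8 := by rcases i with i | i <;> simp [pos] <;> omega
  simp only [Function.comp_apply]
  exact h2 (pos i) hp

theorem step_check : allGood (fun a => allGood fun b =>
    !Nat.beq (pair a b) 1 || (good (a ^^^ b) && Nat.beq (act (a ^^^ b) a) b)) = true := by
  decide +kernel

theorem mid_check : allGood (fun a => allGood fun b =>
    (List.range 256).any fun z => good z && Nat.beq (pair a z) 1 && Nat.beq (pair z b) 1) = true := by
  decide +kernel

theorem fix_check : allGood (fun v => (List.range 256).any fun w =>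
    good w && Nat.beq (pair v w) 0 && !Nat.beq w v && (List.range 256).any fun w' =>
      good w' && Nat.beq (pair v w') 0 && !Nat.beq w' v && !Nat.beq w' w && !Nat.beq w' (v ^^^ w) &&
      (List.range 256).any (fun x => Nat.beq (x ^^^ act v (act w x)) v) &&
      (List.range 256).any (fun x => Nat.beq (x ^^^ act v (act w' x)) v)) = true := by
  decide +kernel

theorem rf_rf_mem (u w : ℕ) (hu : good u = true) (hw : good w = true) :
    rf u * rf w ∈ Cfsg.Omega (ZMod 2) Qf := by
  show rf u * rf w ∈ commutator Ort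
  rw [← Abelianization.ker_of, MonoidHom.mem_ker]
  have step : ∀ a b, good a = true → good b = true → pair a b = 1 →
      Abelianization.of (rf a) = Abelianization.of (rf b) := by
    intro a b ha hb hab
    have h := allGood_spec (allGood_spec step_check ha) hb
    simp only [hab, show Nat.beq 1 1 = true from rfl, Bool.not_true, Bool.false_or, Bool.and_eq_true,
      Nat.beq_eq] at h
    obtain ⟨hg, he⟩ := h
    rw [← he, ← rf_conj hg ha, map_mul, map_mul, map_inv, mul_right_comm, mul_inv_cancel, one_mul]
  have hz := allGood_spec (allGood_spec mid_check hu) hw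
  simp only [List.any_eq_true, Bool.and_eq_true, Nat.beq_eq] at hz
  obtain ⟨z, -, hz⟩ := hz
  rw [map_mul, step u z hu hz.1.1 hz.1.2, step z w hz.1.1 hw hz.2, ← map_mul, rf_sq, map_one]

/-- The product of two reflections named by a pair code. -/
def atomO (p : ℕ) : Ort := rf (p / 256 % 256) * rf (p % 256)

/-- A pair code of two nonsingular vectors. -/
def goodPair (p : ℕ) : Bool := good (p / 256 % 256) && good (p % 256)

/-- The element of a pair code in the derived group. -/
def atomM (p : ℕ) : Om :=
  if h : goodPair p = true then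
    ⟨atomO p, rf_rf_mem _ _ (Bool.and_eq_true_iff.1 h).1 (Bool.and_eq_true_iff.1 h).2⟩
  else 1

/-- The action of a pair code. -/
def actP (p x : ℕ) : ℕ := bif goodPair p then act (p / 256 % 256) (act (p % 256) x) else x

theorem moves_atom (p : ℕ) : Moves (atomM p).1 (actP p) := by
  intro x hx
  by_cases h : goodPair p = true
  · have hm := moves_mul (moves_rf (Bool.and_eq_true_iff.1 h).1) (moves_rf (Bool.and_eq_true_iff.1 h).2) x hx
    rw [actP, h, cond_true, atomM, dif_pos h]
    exact hm
  · rw [actP, Bool.eq_false_iff.2 h, cond_false, atomM, dif_neg h]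
    exact moves_one x hx

/-- The element of a word of pair codes. -/
def eltM (w : List ℕ) : Om := (w.map atomM).prod

/-- The action of a word. -/
def appW (w : List ℕ) (x : ℕ) : ℕ := w.foldr actP x

theorem moves_word : ∀ w : List ℕ, Moves (eltM w).1 (appW w)
  | [] => moves_one
  | p :: w => by
    have h := moves_mul (moves_atom p) (moves_word w)
    exact h

theorem eltM_append (v w : List ℕ) : eltM (v ++ w) = eltM v * eltM w := by
  simp [eltM, List.map_append, List.prod_append]

/-- The key of a word. -/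
def key (w : List ℕ) : ℕ :=
  appW w 1 + 256 * (appW w 2 + 256 * (appW w 4 + 256 * (appW w 8 + 256 * (appW w 16 + 256 *
    (appW w 32 + 256 * (appW w 64 + 256 * appW w 128))))))

/-- Two words have the same key. -/
def same (v w : List ℕ) : Bool := Nat.beq (key v) (key w)

theorem key_congr {v w : List ℕ} (h : eltM v = eltM w) : key v = key w := by
  have e : ∀ x, x < 256 → appW v x = appW w x := fun x hx =>
    moves_congr (h ▸ moves_word v) (moves_word w) hx
  simp only [key, e 1 (by norm_num), e 2 (by norm_num), e 4 (by norm_num), e 8 (by norm_num),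
    e 16 (by norm_num), e 32 (by norm_num), e 64 (by norm_num), e 128 (by norm_num)]

theorem same_spec {v w : List ℕ} (h : same v w = true) : eltM v = eltM w := by
  simp only [same, Nat.beq_eq, key] at h
  refine Subtype.ext (ort_ext (moves_word v) (moves_word w) fun i => ?_)
  have b : ∀ (u : List ℕ) (x : ℕ), x < 256 → appW u x < 256 := fun u x hx => (moves_word u x hx).1
  have := b v 1 (by norm_num); have := b v 2 (by norm_num); have := b v 4 (by norm_num)
  have := b v 8 (by norm_num); have := b v 16 (by norm_num); have := b v 32 (by norm_num)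
  have := b v 64 (by norm_num); have := b v 128 (by norm_num)
  have := b w 1 (by norm_num); have := b w 2 (by norm_num); have := b w 4 (by norm_num)
  have := b w 8 (by norm_num); have := b w 16 (by norm_num); have := b w 32 (by norm_num)
  have := b w 64 (by norm_num); have := b w 128 (by norm_num)
  rcases i with i | i <;> fin_cases i <;> norm_num [pos] <;> omega

theorem center_eq_bot : Subgroup.center Om = ⊥ := by
  refine eq_bot_iff.2 fun g hg => Subgroup.mem_bot.2 (Subtype.ext ?_)
  classical
  choose f hflt hf using fun x => bits_surj ((g.1.1.1 : Matrix Ix Ix (ZMod 2)) *ᵥ bits x)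
  have hmov : Moves g.1 f := fun x _ => ⟨hflt x, (hf x).symm⟩
  have hlin : ∀ x y, f (x ^^^ y) = f x ^^^ f y := fun x y =>
    bits_inj _ (hflt _) _ (Nat.xor_lt_two_pow (n := 8) (hflt x) (hflt y)) (by
      rw [hf, bits_xor, bits_xor, mulVec_add, hf, hf])
  have hinj : ∀ x < 256, ∀ y < 256, f x = f y → x = y := fun x hx y hy e => by
    have h := congrArg (fun z => ((g.1⁻¹).1.1 : Matrix Ix Ix (ZMod 2)) *ᵥ bits z) e
    simp only [hf, mulVec_mulVec, ← Units.val_mul, ← Subgroup.coe_mul, inv_mul_cancel, OneMemClass.coe_one,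
      Units.val_one, one_mulVec] at h
    exact bits_inj x hx y hy h
  -- the image of a vector of the moved space of a pair stays in that space
  have himg : ∀ v w, good v = true → good w = true → ∀ x < 256,
      f (x ^^^ act v (act w x)) = 0 ∨ f (x ^^^ act v (act w x)) = v ∨ f (x ^^^ act v (act w x)) = w ∨
        f (x ^^^ act v (act w x)) = v ^^^ w := by
    intro v w hv hw x hx
    have hb : Moves (atomM (256 * v + w)).1 (actP (256 * v + w)) := moves_atom _
    have hc : g * atomM (256 * v + w) = atomM (256 * v + w) * g := (Subgroup.mem_center_iff.1 hg _).symm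
    have hp : actP (256 * v + w) = fun z => act v (act w z) := by
      have h1 : (256 * v + w) / 256 % 256 = v := by
        have := (good_iff.1 hv).1; have := (good_iff.1 hw).1; omega
      have h2 : (256 * v + w) % 256 = w := by
        have := (good_iff.1 hw).1; omega
      funext z
      simp [actP, goodPair, h1, h2, hv, hw]
    have hm := moves_mul hb hmov
    rw [← Subgroup.coe_mul, ← hc, Subgroup.coe_mul] at hm
    have e := moves_congr (x := x) (moves_mul hmov hb) hm hx
    simp only [Function.comp_apply, hp] at e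
    rw [hlin, e]
    have hsp : ∀ v < 256, qf v = 1 → ∀ w < 256, qf w = 1 → ∀ z < 256,
        z ^^^ act v (act w z) = 0 ∨ z ^^^ act v (act w z) = v ∨ z ^^^ act v (act w z) = w ∨
          z ^^^ act v (act w z) = v ^^^ w := by
      intro v _ _ w _ _ z _
      have hcx : ∀ a, z ^^^ (z ^^^ a) = a := fun a => by rw [← Nat.xor_assoc, Nat.xor_self, Nat.zero_xor]
      unfold act
      cases Nat.beq (pair z w) 1 <;> simp only [cond_false, cond_true]
      · cases Nat.beq (pair z v) 1 <;> simp [hcx]
      · cases Nat.beq (pair (z ^^^ w) v) 1 <;> simp [hcx, Nat.xor_assoc, Nat.xor_comm w v]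
    exact hsp v (good_iff.1 hv).1 (good_iff.1 hv).2 w (good_iff.1 hw).1 (good_iff.1 hw).2 _ (hflt x)
  have hfix : ∀ v < 256, qf v = 1 → f v = v := by
    intro v hv hq
    have hgv : good v = true := good_iff.2 ⟨hv, hq⟩
    have hwit := allGood_spec fix_check hgv
    simp only [List.any_eq_true, Bool.and_eq_true, Nat.beq_eq, Bool.not_eq_true', List.mem_range] at hwit
    obtain ⟨w, hw, c, w', hw', ⟨c', x, hx, ex⟩, x', hx', ex'⟩ := hwit
    have h1 := himg v w hgv c.1.1 x hx
    have h2 := himg v w' hgv c'.1.1.1.1 x' hx'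
    rw [ex] at h1
    rw [ex'] at h2
    have n0 : f v ≠ 0 := fun e => by
      have h0 : f 0 = 0 := by
        have := hlin 0 0
        simpa using this
      have := hinj v hv 0 (by norm_num) (by rw [e, h0])
      subst this
      exact absurd hq (by decide)
    have e1 : w' ≠ w := fun e => by simp [e] at c'
    have e2 : w' ≠ v ^^^ w := fun e => by simp [e] at c'
    rcases h1 with h | h | h | h
    · exact absurd h n0
    · exact h
    · rcases h2 with k | k | k | k
      · exact absurd k n0
      · exact k
      · exact absurd (k.symm.trans h) e1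
      · exact absurd (show w' = v ^^^ w by rw [← h, k, ← Nat.xor_assoc, Nat.xor_self, Nat.zero_xor]) e2
    · rcases h2 with k | k | k | k
      · exact absurd k n0
      · exact k
      · exact absurd (k.symm.trans h) e2
      · exact absurd (Nat.xor_right_inj.1 (k.symm.trans h)) e1
  refine ort_ext hmov moves_one fun i => ?_
  have hspan : ∀ i : Ix, ∃ v, v < 256 ∧ (good v && good (v ^^^ 2 ^ pos i)) = true := by decide +kernel
  obtain ⟨v, -, hv⟩ := hspan i
  simp only [Bool.and_eq_true, good_iff] at hv
  obtain ⟨⟨hv1, hv2⟩, hv3, hv4⟩ := hv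
  have h := hlin v (v ^^^ 2 ^ pos i)
  rw [← Nat.xor_assoc, Nat.xor_self, Nat.zero_xor, hfix v hv1 hv2, hfix _ hv3 hv4, ← Nat.xor_assoc,
    Nat.xor_self, Nat.zero_xor] at h
  exact h

/-- The element of a word in the simple group. -/
def elt (w : List ℕ) : Q := QuotientGroup.mk (eltM w)

theorem elt_append (v w : List ℕ) : elt (v ++ w) = elt v * elt w := by simp [elt, eltM_append]

theorem elt_inj {v w : List ℕ} (h : elt v = elt w) : eltM v = eltM w := by
  rw [elt, elt, QuotientGroup.eq, center_eq_bot, Subgroup.mem_bot, inv_mul_eq_one] at h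
  exact h

theorem root_words : ∀ a b : Ix, (a ≠ b ∧ a ≠ Sum.swap b) →
    ∀ x < 256, bits (appW (rootWords.getD (8 * pos a + pos b) []) x) =
      bits x + Pi.single a (1 * bits x b) - Pi.single (Sum.swap b) (1 * bits x (Sum.swap a)) := by
  decide +kernel

theorem eltM_range_generates (H : Subgroup Om) (h : ∀ p, atomM p ∈ H) : H = ⊤ := by
  refine eq_top_iff.2 fun g _ => ?_
  have hH : ∀ w, eltM w ∈ H := fun w => list_prod_mem fun y hy => by
    obtain ⟨p, -, rfl⟩ := List.mem_map.1 hy
    exact h p
  let K : Subgroup (GL Ix (ZMod 2)) :=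
    H.map ((Cfsg.isometryGroup (ZMod 2) Qf).subtype.comp (Cfsg.Omega (ZMod 2) Qf).subtype)
  have hle : OrthChev.rootGrp OrthChev.PlusFour.frame (ZMod 2) ≤ K := by
    refine (Subgroup.closure_le _).2 ?_
    rintro _ (⟨a, b, hab, t, rfl⟩ | ⟨a, ha, t, rfl⟩)
    · have ht : ∀ t : ZMod 2, t = 0 ∨ t = 1 := by decide
      rcases ht t with rfl | rfl
      · have : OrthChev.glL a b hab (0 : ZMod 2) = 1 := OrthChev.gl_ext fun v => by
          rw [OrthChev.glL_mulVec, OrthChev.opL_zero, Units.val_one, one_mulVec]
        rw [this]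
        exact one_mem K
      have hne : a ≠ b ∧ a ≠ Sum.swap b := ⟨hab.ne, hab.nebar⟩
      refine ⟨eltM (rootWords.getD (8 * pos a + pos b) []), hH _, OrthChev.gl_ext fun v => ?_⟩
      obtain ⟨x, hx, rfl⟩ := bits_surj v
      rw [OrthChev.glL_mulVec]
      exact ((moves_word _ x hx).2).trans (root_words a b hne x hx)
    · exact absurd ha.ho (OrthChev.PlusFour.bar_ne _)
  have hg : (g.1.1 : GL Ix (ZMod 2)) ∈ K :=
    hle (OrthChev.PlusFour.omega (F := ZMod 2) ▸ ⟨g.1, g.2, rfl⟩)
  obtain ⟨g', hg', e⟩ := hg
  rwa [show g' = g from Subtype.ext (Subtype.ext e)] at hg'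

end Cfsg.Agent.Lib.SchurMult.PlusEight
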