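import Cfsg.Agent.Lib.SchurMult.EngineComm
import Cfsg.Agent.Lib.SchurMult.GolayEngine
import Cfsg.Agent.Lib.SchurMult.PlusEight.Model

/-!
Certificates evaluated in the orthogonal group of plus type and dimension eight over two elements.
-/

set_option autoImplicit false
set_option maxRecDepth 100000

namespace Cfsg.Agent.Lib.SchurMult.PlusEight

open Cfsg Cfsg.Agent.Lib
open scoped commutatorElement

/-- The word in given generators. -/
def gword (gens : List (List ℕ)) (w : List ℕ) : List ℕ := w.flatMap fun i => gens.getD i []

variable (D : Engine.Data) (gens conj : List (List ℕ)) (sorted keys : List ℕ)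
  (extra : List ℕ × List ℕ × List ℕ × List ℕ)

/-- The relation checks on a range. -/
def relOK (lo len : ℕ) : Bool :=
  (List.range len).all fun k => same (gword gens (D.lhsAt (lo + k))) (gword gens (D.rhsAt (lo + k)))

/-- The key checks on a range. -/
def keyOK (lo len : ℕ) : Bool :=
  ((sorted.drop lo).take len).map (fun k => key (gword gens (D.word k))) == (keys.drop lo).take len

/-- The checks of the order of the keys. -/
def sortOK : Bool :=
  decide (sorted.length = D.p ^ D.n) && sorted.all (fun k => decide (k < D.p ^ D.n)) &&
  decide (keys.length = sorted.length) && GolayEngine.increasing keys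

/-- The check of an equation: fusion, or the distinguished pair of commutators. -/
def eqnOK : Engine.Eqn → Bool
  | .cons _ _ => true
  | .fus k x y x' y' =>
    (decide (k = conj.length) && (x, y, x', y') == extra) ||
    (same (gword gens (x ++ y)) (gword gens (y ++ x)) &&
    same (conj.getD k [] ++ gword gens x) (gword gens x' ++ conj.getD k []) &&
    same (conj.getD k [] ++ gword gens y) (gword gens y' ++ conj.getD k []))

variable {D gens conj sorted keys extra}

theorem ev_gword (w : List ℕ) : Engine.Data.ev (fun i => elt (gens.getD i [])) w = elt (gword gens w) := by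
  induction w with
  | nil => rfl
  | cons i w ih =>
    simp only [Engine.Data.ev, List.map_cons, List.prod_cons, gword, List.flatMap_cons] at ih ⊢
    rw [ih, elt_append]

theorem same_elt {v w : List ℕ} (h : same v w = true) : elt v = elt w :=
  congrArg (fun g : Om => (QuotientGroup.mk g : Q)) (same_spec h)

/-- The lifts of the two named pairs have equal commutators. -/
def PairAgrees {Γ : Type} [Group Γ] (σ : Γ →* Q) (gens : List (List ℕ))
    (extra : List ℕ × List ℕ × List ℕ × List ℕ) : Prop :=
  ∀ a b a' b' : Γ, σ a = elt (gword gens extra.1) → σ b = elt (gword gens extra.2.1) →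
    σ a' = elt (gword gens extra.2.2.1) → σ b' = elt (gword gens extra.2.2.2) → ⁅a, b⁆ = ⁅a', b'⁆

theorem bound {Γ : Type} [Group Γ] [Finite Γ] {σ : Γ →* Q}
    (hσ : Cfsg.IsStemExtension σ) {p : ℕ} [Fact p.Prime] (hp : D.p = p)
    (hall : D.allOK = true) (hextra : PairAgrees σ gens extra)
    (rparts : List (ℕ × ℕ)) (hrp : ∀ q ∈ rparts, relOK D gens q.1 q.2 = true)
    (hrc : ∀ k < D.nv, ∃ q ∈ rparts, q.1 ≤ k ∧ k < q.1 + q.2)
    (hsort : sortOK D sorted keys = true)
    (kparts : List (ℕ × ℕ)) (hkp : ∀ q ∈ kparts, keyOK D gens sorted keys q.1 q.2 = true)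
    (hkc : ∀ k < D.p ^ D.n, ∃ q ∈ kparts, q.1 ≤ k ∧ k < q.1 + q.2)
    (heq : D.eqs.all (eqnOK gens conj extra) = true)
    (hcard : (Nat.card Q).factorization p = D.n) {k : ℕ} (hk : p ^ k ∣ Nat.card σ.ker) :
    p ^ k ∣ D.bound := by
  simp only [sortOK, Bool.and_eq_true, List.all_eq_true, decide_eq_true_eq] at hsort
  obtain ⟨⟨⟨hlen, hlt⟩, hkl⟩, hinc0⟩ := hsort
  simp only [List.all_eq_true] at heq
  have hrel : ∀ j < D.nv, same (gword gens (D.lhsAt j)) (gword gens (D.rhsAt j)) = true := fun j hj => by
    obtain ⟨q, hq, h1, h2⟩ := hrc j hj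
    have h := hrp q hq
    simp only [relOK, List.all_eq_true, List.mem_range] at h
    have := h (j - q.1) (by omega)
    rwa [show q.1 + (j - q.1) = j by omega] at this
  have hkeys : sorted.map (fun k => key (gword gens (D.word k))) = keys := by
    refine List.ext_getElem (by simp [hkl]) fun j h1 h2 => ?_
    rw [List.length_map, hlen] at h1
    obtain ⟨q, hq, g1, g2⟩ := hkc j h1
    have h := hkp q hq
    simp only [keyOK, beq_iff_eq] at h
    have he := congrArg (fun l => l[j - q.1]?) h
    simp only [List.getElem?_map, List.getElem?_take, if_pos (show j - q.1 < q.2 by omega),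
      List.getElem?_drop, show q.1 + (j - q.1) = j by omega,
      List.getElem?_eq_getElem (show j < sorted.length by omega), List.getElem?_eq_getElem h2,
      Option.map_some, Option.some.injEq] at he
    simpa using he
  have hinc : GolayEngine.increasing (sorted.map fun k => key (gword gens (D.word k))) = true := by
    rw [hkeys]; exact hinc0
  refine Engine.bound_agrees D hσ hp hall (fun i => elt (gens.getD i []))
    (fun j hj => ?_) (fun a ha b hb hab => ?_) (fun e he => ?_) hcard hk
  · rw [ev_gword, ev_gword]
    exact same_elt (hrel j hj)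
  · have hpw := GolayEngine.pairwise_of_increasing _ hinc
    have hnd : sorted.Nodup := List.Nodup.of_map _ (hpw.imp fun h => h.ne)
    have hperm : ∀ c, c < D.p ^ D.n → c ∈ sorted := by
      intro c hc
      have hsub : sorted.toFinset ⊆ Finset.range (D.p ^ D.n) := fun x hx =>
        Finset.mem_range.2 (hlt x (List.mem_toFinset.1 hx))
      have := Finset.eq_of_subset_of_card_le hsub (by
        rw [List.toFinset_card_of_nodup hnd, hlen, Finset.card_range])
      rw [← List.mem_toFinset, this, Finset.mem_range]
      exact hc
    rw [ev_gword, ev_gword] at hab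
    exact List.inj_on_of_nodup_map (hpw.imp fun h => h.ne) (hperm a ha) (hperm b hb)
      (key_congr (elt_inj hab))
  · rcases e with ⟨u, v⟩ | ⟨j, x, y, x', y'⟩
    · trivial
    · have h := heq _ he
      simp only [eqnOK, Bool.or_eq_true, Bool.and_eq_true, decide_eq_true_eq, beq_iff_eq] at h
      rcases h with ⟨-, hx⟩ | ⟨⟨hc, hx⟩, hy⟩
      · intro a b a' b'
        subst hx
        rw [ev_gword, ev_gword, ev_gword, ev_gword]
        exact hextra a b a' b'
      · refine Engine.agrees_of_holds hσ (γ := fun i => elt (conj.getD i [])) ⟨?_, ?_⟩ ?_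
        · rw [ev_gword, ev_gword, ← elt_append, ← elt_append]
          exact same_elt hx
        · rw [ev_gword, ev_gword, ← elt_append, ← elt_append]
          exact same_elt hy
        · show _ * _ = _ * _
          rw [← Engine.Data.ev_append, ← Engine.Data.ev_append, ev_gword, ev_gword]
          exact same_elt hc

end Cfsg.Agent.Lib.SchurMult.PlusEight
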