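import Cfsg.Agent.Lib.SchurMult.EngineLinear
import Cfsg.Agent.Lib.SchurMult.PlusEight.Engine
import Cfsg.Agent.Lib.SchurMult.PlusEight.DataB

/-! The linear checks of the second certificate for the prime two. -/

set_option autoImplicit false
set_option maxRecDepth 100000

namespace Cfsg.Agent.Lib.SchurMult.PlusEight

theorem ordB : dataB.ordOK = true := by decide +kernel

theorem eqsB : dataB.eqs.all dataB.eqOK = true := by decide +kernel

theorem coordB_ok : dataB.coordOK = true := by decide +kernel

theorem zetaB_ok : dataB.zetaOK dataB.table = true := by decide +kernel

theorem expB0 : dataB.expOK dataB.table 0 13 = true := by decide +kernel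

theorem expB1 : dataB.expOK dataB.table 13 13 = true := by decide +kernel

theorem expB2 : dataB.expOK dataB.table 26 13 = true := by decide +kernel

theorem expB3 : dataB.expOK dataB.table 39 13 = true := by decide +kernel

theorem expB4 : dataB.expOK dataB.table 52 13 = true := by decide +kernel

theorem expB5 : dataB.expOK dataB.table 65 13 = true := by decide +kernel

theorem linB : dataB.linOK dataB.table = true := by
  refine Engine.Data.linOK_of_parts _ coordB_ok zetaB_ok ((List.range 6).map fun i => (13 * i, 13)) ?_ ?_
  · intro q hq
    obtain ⟨i, hi, rfl⟩ := List.mem_map.1 hq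
    rw [List.mem_range] at hi
    interval_cases i
    · exact expB0
    · exact expB1
    · exact expB2
    · exact expB3
    · exact expB4
    · exact expB5
  · intro k hk
    have hk : k < 78 := hk
    exact ⟨(13 * (k / 13), 13), List.mem_map.2 ⟨k / 13, List.mem_range.2 (by omega), rfl⟩,
      by simp only; omega, by simp only; omega⟩

end Cfsg.Agent.Lib.SchurMult.PlusEight
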