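import Cfsg.Agent.Lib.SchurMult.PlusEight.Engine
import Cfsg.Agent.Lib.SchurMult.PlusEight.DataOdd

/-! The checks of the certificates for the odd primes. -/

set_option autoImplicit false
set_option maxRecDepth 100000

namespace Cfsg.Agent.Lib.SchurMult.PlusEight

/-- No distinguished pair. -/
def pairNone : List ℕ × List ℕ × List ℕ × List ℕ := ([], [], [], [])

theorem allThree : dataThree.allOK = true := by decide +kernel

theorem relThree : relOK dataThree gensThree 0 15 = true := by decide +kernel

theorem sortThree : sortOK dataThree sortedThree keysThree = true := by decide +kernel

theorem keyThree : keyOK dataThree gensThree sortedThree keysThree 0 243 = true := by decide +kernel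

theorem eqnThree : dataThree.eqs.all (eqnOK gensThree conjThree pairNone) = true := by decide +kernel

theorem allFive : dataFive.allOK = true := by decide +kernel

theorem relFive : relOK dataFive gensFive 0 3 = true := by decide +kernel

theorem sortFive : sortOK dataFive sortedFive keysFive = true := by decide +kernel

theorem keyFive : keyOK dataFive gensFive sortedFive keysFive 0 25 = true := by decide +kernel

theorem eqnFive : dataFive.eqs.all (eqnOK gensFive conjFive pairNone) = true := by decide +kernel


end Cfsg.Agent.Lib.SchurMult.PlusEight
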