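import Cfsg.Agent.Lib.SchurMult.PlusEight.Closed
import Cfsg.Agent.Lib.SchurMult.PlusEight.Keys
import Cfsg.Agent.Lib.SchurMult.PlusEight.LinA
import Cfsg.Agent.Lib.SchurMult.PlusEight.LinB
import Cfsg.Agent.Lib.SchurMult.PlusEight.LinC
import Cfsg.Agent.Lib.SchurMult.PlusEight.Eqn
import Cfsg.Agent.Lib.SchurMult.PlusEight.Odd
import Cfsg.Agent.Lib.SchurMult.Klein
import Cfsg.Agent.Lib.SchurMult.MathieuCommon
import Cfsg.Agent.Lib.Classical.QuadOmega.Main

/-!
The kernel of a stem extension of the orthogonal group of plus type and dimension eight over two elements is an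
image of a four group.
-/

set_option autoImplicit false
set_option maxRecDepth 100000

namespace Cfsg.Agent.Lib.SchurMult.PlusEight

open Cfsg Cfsg.Agent.Lib
open scoped commutatorElement

theorem card_Q : Nat.card Q = 2 ^ 12 * 3 ^ 5 * 5 ^ 2 * 7 := by
  have h := Classical.QuadOmega.card_POmega_plus (F := ZMod 2) (m := 4) (by norm_num)
  rw [ZMod.card, show Nat.gcd 4 (2 ^ 4 - 1) = 1 from rfl, one_mul] at h
  rw [h]
  norm_num [Finset.prod_range_succ]

variable {Δ : Type} [Group Δ] {τ : Δ →* Q}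

theorem comm_lift (hτ : Cfsg.IsStemExtension τ) {a a' b b' : Δ} (ha : τ a = τ a') (hb : τ b = τ b') :
    ⁅a, b⁆ = ⁅a', b'⁆ := by
  have hz : ∀ {x x' : Δ}, τ x = τ x' → x'⁻¹ * x ∈ Subgroup.center Δ := fun h =>
    hτ.2.1 (by rw [MonoidHom.mem_ker, map_mul, map_inv, h, inv_mul_cancel])
  have := commutatorElement_central_mul a' b' (hz ha) (hz hb)
  simpa [mul_inv_cancel_left] using this

theorem elt_gword_nil (gens : List (List ℕ)) : elt (gword gens []) = 1 := by
  simp [gword, elt, eltM]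

theorem comm_trivial (hτ : Cfsg.IsStemExtension τ) (gens : List (List ℕ)) {a b : Δ}
    (ha : τ a = elt (gword gens [])) : ⁅a, b⁆ = 1 := by
  rw [comm_lift hτ (a' := 1) (b' := b) (by rw [ha, map_one, elt_gword_nil]) rfl, commutatorElement_one_left]

theorem relTwo_cover : ∀ k < dataA.nv, ∃ q ∈ (List.range 6).map (fun i => (13 * i, 13)),
    q.1 ≤ k ∧ k < q.1 + q.2 := fun k hk => by
  have hk : k < 78 := hk
  exact ⟨(13 * (k / 13), 13), List.mem_map.2 ⟨k / 13, List.mem_range.2 (by omega), rfl⟩,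
    by simp only; omega, by simp only; omega⟩

theorem keyTwo_cover : ∀ k < dataA.p ^ dataA.n, ∃ q ∈ (List.range 16).map (fun i => (256 * i, 256)),
    q.1 ≤ k ∧ k < q.1 + q.2 := fun k hk => by
  have hk : k < 4096 := hk
  exact ⟨(256 * (k / 256), 256), List.mem_map.2 ⟨k / 256, List.mem_range.2 (by omega), rfl⟩,
    by simp only; omega, by simp only; omega⟩

/-- A certificate over the Sylow subgroup for the prime two. -/
theorem bound_of_pair [Finite Δ] (hτ : Cfsg.IsStemExtension τ) (D : Engine.Data)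
    (extra : List ℕ × List ℕ × List ℕ × List ℕ) (hp : D.p = dataA.p) (hn : D.n = dataA.n)
    (hr : D.rhs = dataA.rhs) (hall : D.allOK = true)
    (heq : D.eqs.all (eqnOK gensTwo conjTwo extra) = true) (hb : D.bound = 2)
    (hextra : PairAgrees τ gensTwo extra) {k : ℕ} (hk : 2 ^ k ∣ Nat.card τ.ker) : 2 ^ k ∣ 2 := by
  have h1 : relOK D = relOK dataA := by
    funext g lo len
    simp only [relOK, Engine.Data.lhsAt, Engine.Data.rhsAt, Engine.Data.lhs, hp, hn, hr]
  have h2 : keyOK D = keyOK dataA := by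
    funext g s ks lo len
    simp only [keyOK, Engine.Data.word, hp, hn]
  have h3 : sortOK D = sortOK dataA := by
    funext s ks
    simp only [sortOK, hp, hn]
  suffices h : 2 ^ k ∣ D.bound by rwa [hb] at h
  refine bound (p := 2) hτ (hp.trans rfl) hall hextra ((List.range 6).map fun i => (13 * i, 13)) ?_ ?_
    (h3.symm ▸ sortTwo : sortOK D sortedTwo keysTwo = true) ((List.range 16).map fun i => (256 * i, 256)) ?_ ?_
    heq ?_ hk
  · intro q hq
    obtain ⟨i, hi, rfl⟩ := List.mem_map.1 hq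
    rw [h1]
    exact relParts i (List.mem_range.1 hi)
  · rw [show D.nv = dataA.nv by simp only [Engine.Data.nv, hn]]
    exact relTwo_cover
  · intro q hq
    obtain ⟨i, hi, rfl⟩ := List.mem_map.1 hq
    rw [h2]
    exact keyParts i (List.mem_range.1 hi)
  · rw [hp, hn]
    exact keyTwo_cover
  · rw [hn]
    exact Mathieu.factorization_of (r := 42525) Nat.prime_two (by rw [card_Q]; rfl) (by decide)

theorem allA : dataA.allOK = true := by
  simp only [Engine.Data.allOK, Bool.and_eq_true]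
  exact ⟨⟨⟨closedA, ordA⟩, eqsA⟩, linA⟩

theorem allB : dataB.allOK = true := by
  simp only [Engine.Data.allOK, Bool.and_eq_true]
  exact ⟨⟨⟨closedB, ordB⟩, eqsB⟩, linB⟩

theorem allC : dataC.allOK = true := by
  simp only [Engine.Data.allOK, Bool.and_eq_true]
  exact ⟨⟨⟨closedC, ordC⟩, eqsC⟩, linC⟩

theorem dvd_of_two [Finite Δ] (hτ : Cfsg.IsStemExtension τ) {N : ℕ}
    (h : ∀ k, 2 ^ k ∣ Nat.card τ.ker → 2 ^ k ∣ N) : Nat.card τ.ker ∣ N := by
  have hnone : ∀ gens, PairAgrees τ gens pairNone := fun gens a b a' b' ha _ ha' _ =>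
    (comm_trivial hτ gens ha).trans (comm_trivial hτ gens ha').symm
  refine (Nat.dvd_iff_prime_pow_dvd_dvd _ _).2 fun r k hr hk => ?_
  haveI := Fact.mk hr
  by_cases h2 : r = 2
  · subst h2
    exact h k hk
  by_cases h3 : r = 3
  · subst h3
    refine (bound (p := 3) (D := dataThree) hτ rfl allThree (hnone gensThree) [(0, 15)]
      (fun q hq => by rw [List.mem_singleton.1 hq]; exact relThree)
      (fun j hj => ⟨(0, 15), List.mem_singleton.2 rfl, Nat.zero_le _, hj.trans_eq rfl⟩) sortThree [(0, 243)]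
      (fun q hq => by rw [List.mem_singleton.1 hq]; exact keyThree)
      (fun j hj => ⟨(0, 243), List.mem_singleton.2 rfl, Nat.zero_le _, hj.trans_eq rfl⟩) eqnThree
      (Mathieu.factorization_of (r := 716800) Nat.prime_three (by rw [card_Q]; rfl) (by decide)) hk).trans ?_
    exact one_dvd N
  by_cases h5 : r = 5
  · subst h5
    refine (bound (p := 5) (D := dataFive) hτ rfl allFive (hnone gensFive) [(0, 3)]
      (fun q hq => by rw [List.mem_singleton.1 hq]; exact relFive)
      (fun j hj => ⟨(0, 3), List.mem_singleton.2 rfl, Nat.zero_le _, hj.trans_eq rfl⟩) sortFive [(0, 25)]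
      (fun q hq => by rw [List.mem_singleton.1 hq]; exact keyFive)
      (fun j hj => ⟨(0, 25), List.mem_singleton.2 rfl, Nat.zero_le _, hj.trans_eq rfl⟩) eqnFive
      (Mathieu.factorization_of (r := 6967296) Nat.prime_five (by rw [card_Q]; rfl) (by decide)) hk).trans ?_
    exact one_dvd N
  rcases Nat.eq_zero_or_pos k with rfl | hk0
  · simp
  exfalso
  refine SchurMult.not_dvd_ker_of_sq hτ ?_ ((dvd_pow_self r hk0.ne').trans hk)
  rw [card_Q]
  intro hd
  have hco : ∀ {q : ℕ}, q.Prime → r ≠ q → ∀ e, Nat.Coprime (r ^ 2) (q ^ e) := fun hq hne e =>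
    ((Nat.coprime_primes hr hq).2 hne).pow 2 e
  have h7 : r ^ 2 ∣ 7 := ((((hco Nat.prime_two h2 12).mul_right (hco Nat.prime_three h3 5)).mul_right
    (hco Nat.prime_five h5 2))).dvd_of_dvd_mul_left hd
  rcases (Nat.dvd_prime (by norm_num : Nat.Prime 7)).1 h7 with e | e
  · rw [Nat.pow_eq_one] at e
    rcases e with e | e
    · exact hr.one_lt.ne' e
    · exact absurd e (by norm_num)
  · have : r < 3 := by nlinarith
    have := hr.two_le
    omega

theorem lifts_facts :
    same (gword gensTwo [0] ++ gword gensTwo [0]) [] = true ∧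
    same (gword gensTwo [0] ++ gword gensTwo [6, 9]) (gword gensTwo [6, 9] ++ gword gensTwo [0]) = true ∧
    same (gword gensTwo [0] ++ gword gensTwo [5]) (gword gensTwo [5] ++ gword gensTwo [0]) = true := by
  decide +kernel

/-- The kernel of a finite stem extension is an image of a four group. -/
theorem exists_surjective [Finite Δ] (hτ : Cfsg.IsStemExtension τ) :
    ∃ π : Klein.V4 →* τ.ker, Function.Surjective π := by
  obtain ⟨a, ha⟩ := hτ.1 (elt (gword gensTwo [0]))
  obtain ⟨b, hb⟩ := hτ.1 (elt (gword gensTwo [6, 9]))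
  obtain ⟨b', hb'⟩ := hτ.1 (elt (gword gensTwo [5]))
  obtain ⟨f1, f2, f3⟩ := lifts_facts
  have hker : ∀ {x y : Δ} {v w : List ℕ}, τ x = elt v → τ y = elt w → same (v ++ w) (w ++ v) = true →
      ⁅x, y⁆ ∈ τ.ker := fun {x y v w} hx hy h => by
    rw [MonoidHom.mem_ker, map_commutatorElement, hx, hy, commutatorElement_eq_one_iff_mul_comm,
      ← elt_append, ← elt_append]
    exact same_elt h
  have haa : a * a ∈ Subgroup.center Δ := hτ.2.1 (by
    rw [MonoidHom.mem_ker, map_mul, ha, ← elt_append, same_elt f1]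
    rfl)
  have hsq : ∀ {y : Δ}, ⁅a, y⁆ ∈ τ.ker → ⁅a, y⁆ * ⁅a, y⁆ = 1 := fun {y} hy => by
    have hc := Subgroup.mem_center_iff.1 (hτ.2.1 hy)
    calc ⁅a, y⁆ * ⁅a, y⁆ = a * ⁅a, y⁆ * a⁻¹ * ⁅a, y⁆ := by rw [hc a, mul_inv_cancel_right]
      _ = ⁅a * a, y⁆ := by simp only [commutatorElement_def]; group
      _ = 1 := commutatorElement_eq_one_iff_mul_comm.2 (Subgroup.mem_center_iff.1 haa y).symm
  set c := ⁅a, b⁆ with hc
  set c' := ⁅a, b'⁆ with hc'
  have hck : c ∈ τ.ker := hker ha hb f2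
  have hck' : c' ∈ τ.ker := hker ha hb' f3
  have two : ∀ (D : Engine.Data) (extra : List ℕ × List ℕ × List ℕ × List ℕ),
      D.p = dataA.p → D.n = dataA.n → D.rhs = dataA.rhs → D.allOK = true →
      D.eqs.all (eqnOK gensTwo conjTwo extra) = true → D.bound = 2 → PairAgrees τ gensTwo extra →
      ∃ π : Klein.V4 →* τ.ker, Function.Surjective π :=
    fun D extra e1 e2 e3 e4 e5 e6 e7 => Klein.exists_surjective_of_dvd_two
      (dvd_of_two hτ fun k hk => bound_of_pair hτ D extra e1 e2 e3 e4 e5 e6 e7 hk)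
  by_cases h1 : c = 1
  · refine two dataA pairA rfl rfl rfl allA eqnA rfl fun x y x' y' hx hy hx' _ => ?_
    rw [comm_trivial hτ gensTwo hx', comm_lift hτ (hx.trans ha.symm) (hy.trans hb.symm)]
    exact h1
  by_cases h2 : c' = 1
  · refine two dataB pairB rfl rfl rfl allB eqnB rfl fun x y x' y' hx hy hx' _ => ?_
    rw [comm_trivial hτ gensTwo hx', comm_lift hτ (hx.trans ha.symm) (hy.trans hb'.symm)]
    exact h2
  by_cases h3 : c = c'
  · refine two dataC pairC rfl rfl rfl allC eqnC rfl fun x y x' y' hx hy hx' hy' => ?_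
    rw [comm_lift hτ (hx.trans ha.symm) (hy.trans hb.symm), comm_lift hτ (hx'.trans ha.symm) (hy'.trans hb'.symm)]
    exact h3
  -- the order is at most four
  have hle : Nat.card τ.ker ≤ 4 := by
    obtain ⟨Δ', _, _, q, τ', hq, hqc, hcomp, hτ', hcard⟩ := Klein.exists_quotient hτ hck
    have hagree : PairAgrees τ' gensTwo pairA := by
      intro x y x' y' hx hy hx' _
      obtain ⟨x, rfl⟩ := hq x
      obtain ⟨y, rfl⟩ := hq y
      have hcomp' : ∀ z, τ' (q z) = τ z := fun z => DFunLike.congr_fun hcomp z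
      rw [hcomp'] at hx hy
      rw [comm_trivial hτ' gensTwo hx', ← map_commutatorElement,
        comm_lift hτ (hx.trans ha.symm) (hy.trans hb.symm)]
      exact hqc
    have h2' : Nat.card τ'.ker ∣ 2 :=
      dvd_of_two hτ' fun k hk => bound_of_pair hτ' dataA pairA rfl rfl rfl allA eqnA rfl hagree hk
    have ho : orderOf c ∣ 2 := orderOf_dvd_of_pow_eq_one (by rw [pow_two]; exact hsq hck)
    exact Nat.le_of_dvd (by norm_num) (hcard ▸ Nat.mul_dvd_mul ho h2')
  refine ⟨Klein.pairHom ⟨c, hck⟩ ⟨c', hck'⟩ (Subtype.ext (hsq hck)) (Subtype.ext (hsq hck'))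
    (Subtype.ext (Subgroup.mem_center_iff.1 (hτ.2.1 hck') c)), (Klein.bijective_pairHom hle _ _ _ _ _
      (fun e => h1 (congrArg Subtype.val e)) (fun e => h2 (congrArg Subtype.val e))
      (fun e => h3 (congrArg Subtype.val e))).2⟩

end Cfsg.Agent.Lib.SchurMult.PlusEight
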