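import Cfsg.Agent.Lib.SchurMult.EngineFast
import Cfsg.Agent.Lib.SchurMult.PlusEight.DataA
import Cfsg.Agent.Lib.SchurMult.PlusEight.DataB
import Cfsg.Agent.Lib.SchurMult.PlusEight.DataC

/-! The closure of the collection in the Sylow subgroup for the prime two. -/

set_option autoImplicit false
set_option maxRecDepth 100000

namespace Cfsg.Agent.Lib.SchurMult.PlusEight

theorem closedPart0 : Engine.Data.closed₂ 12 tableTwo 0 256 = true := by decide +kernel

theorem closedPart1 : Engine.Data.closed₂ 12 tableTwo 256 256 = true := by decide +kernel

theorem closedPart2 : Engine.Data.closed₂ 12 tableTwo 512 256 = true := by decide +kernel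

theorem closedPart3 : Engine.Data.closed₂ 12 tableTwo 768 256 = true := by decide +kernel

theorem closedPart4 : Engine.Data.closed₂ 12 tableTwo 1024 256 = true := by decide +kernel

theorem closedPart5 : Engine.Data.closed₂ 12 tableTwo 1280 256 = true := by decide +kernel

theorem closedPart6 : Engine.Data.closed₂ 12 tableTwo 1536 256 = true := by decide +kernel

theorem closedPart7 : Engine.Data.closed₂ 12 tableTwo 1792 256 = true := by decide +kernel

theorem closedPart8 : Engine.Data.closed₂ 12 tableTwo 2048 256 = true := by decide +kernel

theorem closedPart9 : Engine.Data.closed₂ 12 tableTwo 2304 256 = true := by decide +kernel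

theorem closedPart10 : Engine.Data.closed₂ 12 tableTwo 2560 256 = true := by decide +kernel

theorem closedPart11 : Engine.Data.closed₂ 12 tableTwo 2816 256 = true := by decide +kernel

theorem closedPart12 : Engine.Data.closed₂ 12 tableTwo 3072 256 = true := by decide +kernel

theorem closedPart13 : Engine.Data.closed₂ 12 tableTwo 3328 256 = true := by decide +kernel

theorem closedPart14 : Engine.Data.closed₂ 12 tableTwo 3584 256 = true := by decide +kernel

theorem closedPart15 : Engine.Data.closed₂ 12 tableTwo 3840 256 = true := by decide +kernel

theorem closedParts : ∀ i < 16, Engine.Data.closed₂ 12 tableTwo (256 * i) 256 = true := by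
  intro i hi
  interval_cases i
  · exact closedPart0
  · exact closedPart1
  · exact closedPart2
  · exact closedPart3
  · exact closedPart4
  · exact closedPart5
  · exact closedPart6
  · exact closedPart7
  · exact closedPart8
  · exact closedPart9
  · exact closedPart10
  · exact closedPart11
  · exact closedPart12
  · exact closedPart13
  · exact closedPart14
  · exact closedPart15

theorem tabA : dataA.tabOK tableTwo = true := by decide +kernel

theorem closedA : dataA.closedOK = true := by
  refine Engine.Data.closedOK_of_parts tabA ((List.range 16).map fun i => (256 * i, 256)) ?_ ?_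
  · intro q hq
    obtain ⟨i, hi, rfl⟩ := List.mem_map.1 hq
    exact closedParts i (List.mem_range.1 hi)
  · intro k hk
    have hk : k < 4096 := hk
    exact ⟨(256 * (k / 256), 256), List.mem_map.2 ⟨k / 256, List.mem_range.2 (by omega), rfl⟩,
      by simp only; omega, by simp only; omega⟩

theorem tabB : dataB.tabOK tableTwo = true := by decide +kernel

theorem closedB : dataB.closedOK = true := by
  refine Engine.Data.closedOK_of_parts tabB ((List.range 16).map fun i => (256 * i, 256)) ?_ ?_
  · intro q hq
    obtain ⟨i, hi, rfl⟩ := List.mem_map.1 hq
    exact closedParts i (List.mem_range.1 hi)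
  · intro k hk
    have hk : k < 4096 := hk
    exact ⟨(256 * (k / 256), 256), List.mem_map.2 ⟨k / 256, List.mem_range.2 (by omega), rfl⟩,
      by simp only; omega, by simp only; omega⟩

theorem tabC : dataC.tabOK tableTwo = true := by decide +kernel

theorem closedC : dataC.closedOK = true := by
  refine Engine.Data.closedOK_of_parts tabC ((List.range 16).map fun i => (256 * i, 256)) ?_ ?_
  · intro q hq
    obtain ⟨i, hi, rfl⟩ := List.mem_map.1 hq
    exact closedParts i (List.mem_range.1 hi)
  · intro k hk
    have hk : k < 4096 := hk
    exact ⟨(256 * (k / 256), 256), List.mem_map.2 ⟨k / 256, List.mem_range.2 (by omega), rfl⟩,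
      by simp only; omega, by simp only; omega⟩


end Cfsg.Agent.Lib.SchurMult.PlusEight
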