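import Cfsg.Agent.Lib.OrthChev.Reduce
import Cfsg.Prelude.Def_Classical
import Cfsg.Prelude.Def_KGroupFacts
import Mathlib

/-!
The groups of plus type over isomorphic fields are isomorphic, and the multiplier is carried by isomorphisms.
-/

set_option autoImplicit false

namespace Cfsg.Agent.Lib.SchurMult.PlusEight

open Cfsg Cfsg.Agent.Lib Matrix

universe u v

variable {A : Type u} {B : Type v} [Field A] [Field B]

/-- Entrywise application of a field isomorphism to an invertible matrix. -/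
def gmap (e : A ≃+* B) (m : ℕ) : GL (Fin m ⊕ Fin m) A →* GL (Fin m ⊕ Fin m) B :=
  Units.map (RingHom.mapMatrix (m := Fin m ⊕ Fin m) e.toRingHom).toMonoidHom

theorem map_iso (e : A ≃+* B) {m : ℕ} (g : ↥(Cfsg.isometryGroup A (Cfsg.quadFormPlus m A))) :
    gmap e m g.1 ∈
      Cfsg.isometryGroup B (Cfsg.quadFormPlus m B) := by
  have hQ : ∀ v : Fin m ⊕ Fin m → A,
      e (Cfsg.quadFormPlus m A v) = Cfsg.quadFormPlus m B (fun i => e (v i)) := fun v => by
    simp [Cfsg.quadFormPlus, map_sum]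
  refine OrthChev.mem_iso_iff.2 fun v => ?_
  obtain ⟨v, rfl⟩ : ∃ v' : Fin m ⊕ Fin m → A, (fun i => e (v' i)) = v :=
    ⟨fun i => e.symm (v i), funext fun i => e.apply_symm_apply _⟩
  rw [← hQ, ← OrthChev.mem_iso_iff.1 g.2 v, hQ]
  congr 1
  funext i
  exact (RingHom.map_mulVec e.toRingHom _ _ i).symm

/-- The isomorphism of isometry groups given by a field isomorphism. -/
def isoEquiv (e : A ≃+* B) (m : ℕ) :
    ↥(Cfsg.isometryGroup A (Cfsg.quadFormPlus m A)) ≃* ↥(Cfsg.isometryGroup B (Cfsg.quadFormPlus m B)) where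
  toFun g := ⟨gmap e m g.1, map_iso e g⟩
  invFun g := ⟨gmap e.symm m g.1, map_iso e.symm g⟩
  left_inv g := Subtype.ext (Units.ext (by ext i j; exact e.symm_apply_apply _))
  right_inv g := Subtype.ext (Units.ext (by ext i j; exact e.apply_symm_apply _))
  map_mul' g h := Subtype.ext (map_mul (gmap e m) g.1 h.1)

theorem exists_congr (e : A ≃+* B) (m : ℕ) :
    Nonempty (Cfsg.POmega A (Cfsg.quadFormPlus m A) ≃* Cfsg.POmega B (Cfsg.quadFormPlus m B)) := by
  set φ := isoEquiv e m
  have h : (Cfsg.Omega A (Cfsg.quadFormPlus m A)).map φ.toMonoidHom = Cfsg.Omega B (Cfsg.quadFormPlus m B) := by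
    show Subgroup.map φ.toMonoidHom (commutator _) = commutator _
    rw [map_commutator_eq, MonoidHom.range_eq_top.2 φ.surjective, ← commutator_def]
  let ψ := (φ.subgroupMap (Cfsg.Omega A (Cfsg.quadFormPlus m A))).trans (MulEquiv.subgroupCongr h)
  refine ⟨QuotientGroup.congr _ _ ψ ?_⟩
  ext y
  constructor
  · rintro ⟨x, hx, rfl⟩
    rw [Subgroup.mem_center_iff]
    intro z
    obtain ⟨w, rfl⟩ := ψ.surjective z
    show ψ w * ψ x = ψ x * ψ w
    rw [← map_mul, Subgroup.mem_center_iff.1 hx w, map_mul]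
  · intro hy
    obtain ⟨x, rfl⟩ := ψ.surjective y
    refine ⟨x, Subgroup.mem_center_iff.2 fun w => ψ.injective ?_, rfl⟩
    rw [map_mul, map_mul, Subgroup.mem_center_iff.1 hy]

end Cfsg.Agent.Lib.SchurMult.PlusEight
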