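import Cfsg.Agent.Lib.SchurMult.PlusEight.CoverChecks
import Cfsg.Prelude.Def_KGroupFacts

/-!
A cover of the orthogonal group of plus type and dimension eight over two elements with a four group as
kernel, inside the direct product with the invertible matrices of degree sixteen over three elements: the
lifts of the reflections are the elements of the Clifford algebra attached to the roots of type `E₈`.
-/

set_option autoImplicit false
set_option maxRecDepth 100000

namespace Cfsg.Agent.Lib.SchurMult.PlusEight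

open Cfsg Cfsg.Agent.Lib Matrix
open scoped commutatorElement

theorem comb_anti (c d : Fin 8 → ZMod 3) :
    comb c * comb d + comb d * comb c = (-2 * dot c d) • (1 : M16) := by
  have h1 : comb c * comb d = ∑ i, ∑ j, (c i * d j) • (GA i * GA j) := by
    simp only [comb, Finset.sum_mul, Finset.mul_sum, smul_mul_smul_comm]
    rw [Finset.sum_comm]
  have h2 : comb d * comb c = ∑ i, ∑ j, (c i * d j) • (GA j * GA i) := by
    simp only [comb, Finset.sum_mul, Finset.mul_sum, smul_mul_smul_comm]
    simp only [mul_comm]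
  rw [h1, h2, ← Finset.sum_add_distrib, dot, Finset.mul_sum, Finset.sum_smul]
  refine Finset.sum_congr rfl fun i _ => ?_
  rw [← Finset.sum_add_distrib, Finset.sum_eq_single i]
  · rw [axes_sq, ← smul_add, show (-1 : M16) + -1 = (-2 : ZMod 3) • (1 : M16) by
      rw [show (-2 : ZMod 3) = -1 + -1 by decide, add_smul, neg_one_smul], smul_smul]
    congr 1
    ring
  · intro j _ hj
    rw [← smul_add, axes_anti i j (Ne.symm hj), smul_zero]
  · simp

theorem comb_smul (a : ZMod 3) (c : Fin 8 → ZMod 3) : comb (a • c) = a • comb c := by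
  simp [comb, Finset.smul_sum, smul_smul]

theorem comb_sub (c d : Fin 8 → ZMod 3) : comb (c - d) = comb c - comb d := by
  simp [comb, sub_smul, Finset.sum_sub_distrib]

theorem G_sq {u : ℕ} (hu : good u = true) : G u * G u = -1 := by
  have h := allGood_spec coef_check hu
  simp only [Bool.and_eq_true, decide_eq_true_eq] at h
  have e := comb_anti (cf u) (cf u)
  rw [h.1, mul_one, ← two_smul (ZMod 3)] at e
  have := congrArg (fun M : M16 => (2 : ZMod 3) • M) e
  simpa [G, smul_smul, show (2 : ZMod 3) * 2 = 1 by decide, show (2 : ZMod 3) * -2 = -1 by decide] using this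

theorem G_rel {u w : ℕ} (hu : good u = true) (hw : good w = true) :
    G u * G w = G (act u w) * G u ∨ G u * G w = -(G (act u w) * G u) := by
  have h := allGood_spec coef_check hu
  simp only [Bool.and_eq_true, decide_eq_true_eq] at h
  have hh := allGood_spec h.2 hw
  simp only [Bool.or_eq_true, decide_eq_true_eq] at hh
  set t : ZMod 3 := 2 * dot (cf w) (cf u) with ht
  have e : comb (cf w - t • cf u) * G u = -(G u * G w) := by
    have e1 := comb_anti (cf w) (cf u)
    rw [comb_sub, comb_smul, sub_mul, smul_mul_assoc, show comb (cf u) * G u = -1 from G_sq hu,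
      show comb (cf w) = G w from rfl]
    rw [neg_mul, ← ht, neg_smul] at e1
    rw [smul_neg, sub_neg_eq_add]
    rw [eq_neg_iff_add_eq_zero, add_right_comm]
    show G w * G u + G u * G w + t • (1 : M16) = 0
    show comb (cf w) * comb (cf u) + comb (cf u) * comb (cf w) + t • (1 : M16) = 0
    rw [e1, neg_add_cancel]
  rcases hh with hh | hh
  · refine Or.inr ?_
    have : G (act u w) = comb (cf w - t • cf u) := by
      rw [G, show cf (act u w) = cf w - t • cf u from funext fun k => by simp [hh k, ht]]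
    rw [this, e, neg_neg]
  · refine Or.inl ?_
    have : G (act u w) = -comb (cf w - t • cf u) := by
      rw [G, show cf (act u w) = (-1 : ZMod 3) • (cf w - t • cf u) from funext fun k => by simp [hh k, ht],
        comb_smul, neg_one_smul]
    rw [this, neg_mul, e, neg_neg]

theorem axes_good : ∀ k : Fin 8, good (axes.getD k.1 0) = true := by decide

theorem axes_G : ∀ k : Fin 8, G (axes.getD k.1 0) = GA k := by
  have h : ∀ k l : Fin 8, cf (axes.getD k.1 0) l = if l = k then 1 else 0 := by decide
  intro k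
  rw [G, comb, Finset.sum_eq_single k (fun l _ hl => by rw [h, if_neg hl, zero_smul]) (by simp), h, if_pos rfl,
    one_smul]

theorem signVecs_good : ∀ v ∈ signVecs, good v = true := by decide

theorem col_zero : ∀ v ∈ signVecs, ∀ e : Fin 8 → Bool, ∀ k : Fin 8,
    (∀ i, comb (fun k => cf v k * sg (e k)) i 0 = comb (cf v) i 0) → cf v k * sg (e k) = cf v k := by
  intro v _ e k h
  have hc := col_witness
  obtain ⟨i, hi, hl⟩ := hc k
  have := h i
  simp only [comb, Matrix.sum_apply, Matrix.smul_apply, smul_eq_mul] at this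
  rw [Finset.sum_eq_single k (fun l _ hl' => by rw [hl l hl', mul_zero]) (by simp),
    Finset.sum_eq_single k (fun l _ hl' => by rw [hl l hl', mul_zero]) (by simp)] at this
  exact mul_right_cancel₀ hi this

theorem commute_word {A : M16} (h : ∀ k, A * GA k = GA k * A) : ∀ l, A * wordA l = wordA l * A
  | [] => by simp [wordA]
  | k :: l => by
    have := commute_word h l
    simp only [wordA, List.map_cons, List.prod_cons] at this ⊢
    rw [← mul_assoc, h, mul_assoc, this, mul_assoc]

/-- A matrix commuting with the axis matrices is scalar. -/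
theorem scalar_of_commute {A : M16} (h : ∀ k, A * GA k = GA k * A) : A = A 0 0 • (1 : M16) := by
  have hd : ∀ l ∈ diagWords, ∀ j, A j 0 * wordA l 0 0 = wordA l j j * A j 0 := by
    intro l hl j
    have h1 := congrFun (congrFun (commute_word h l) j) 0
    rw [Matrix.mul_apply, Matrix.mul_apply, Finset.sum_eq_single 0 ?_ (by simp),
      Finset.sum_eq_single j ?_ (by simp)] at h1
    · exact h1
    · intro b _ hb
      rw [diag_words l hl j b (Ne.symm hb), zero_mul]
    · intro b _ hb
      rw [diag_words l hl b 0 hb, mul_zero]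
  have h0 : ∀ j, j ≠ 0 → A j 0 = 0 := fun j hj => by
    obtain ⟨hl, hne⟩ := sep_words j hj
    have := hd _ hl j
    rw [mul_comm (A j 0)] at this
    by_contra hA
    exact hne (mul_right_cancel₀ hA this).symm
  ext j l
  have h1 := congrFun (congrFun (commute_word h (colWords.getD l.1 [])) j) 0
  rw [Matrix.mul_apply, Matrix.mul_apply, Finset.sum_eq_single l ?_ (by simp),
    Finset.sum_eq_single 0 ?_ (by simp)] at h1
  · have hs := (col_words l l).1 rfl
    by_cases hj : j = l
    · subst hj
      rw [mul_comm (wordA _ j 0)] at h1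
      simp [mul_right_cancel₀ hs h1]
    · rw [(col_words l j).2 hj, zero_mul, mul_eq_zero] at h1
      rcases h1 with h1 | h1
      · simp [h1, Matrix.one_apply_ne hj]
      · exact absurd h1 hs
  · intro b _ hb
    rw [h0 b hb, mul_zero]
  · intro b _ hb
    rw [(col_words l b).2 hb, mul_zero]

theorem sign_cases : ∀ x : ZMod 3, x ≠ 0 → x = 1 ∨ x = -1 := by decide

/-- A unit with its matrix. -/
def Gu (u : ℕ) : M16ˣ :=
  if h : good u = true then
    ⟨G u, -G u, by rw [mul_neg, G_sq h, neg_neg], by rw [neg_mul, G_sq h, neg_neg]⟩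
  else 1

/-- The lift of a pair code. -/
def lift (p : ℕ) : M16ˣ × Om :=
  if goodPair p = true then (Gu (p / 256 % 256) * Gu (p % 256), atomM p) else 1

/-- The generators of the cover. -/
def liftGens : Set (M16ˣ × Om) := Set.range lift

/-- The cover. -/
noncomputable abbrev Cov : Subgroup (M16ˣ × Om) := Subgroup.closure liftGens

/-- The matrix part maps each attached matrix to plus or minus the matrix attached to the image. -/
def Compat (A : M16) (g : Ort) : Prop :=
  ∀ w, good w = true → ∃ w', good w' = true ∧ (g.1.1 : Matrix Ix Ix (ZMod 2)) *ᵥ bits w = bits w' ∧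
    (A * G w = G w' * A ∨ A * G w = -(G w' * A))

theorem compat_one : Compat 1 1 := fun w hw => ⟨w, hw, by simp, Or.inl (by simp)⟩

theorem compat_mul {A B : M16} {g h : Ort} (hA : Compat A g) (hB : Compat B h) : Compat (A * B) (g * h) := by
  intro w hw
  obtain ⟨u, hu, e1, r1⟩ := hB w hw
  obtain ⟨z, hz, e2, r2⟩ := hA u hu
  refine ⟨z, hz, by rw [Subgroup.coe_mul, Units.val_mul, ← mulVec_mulVec, e1, e2], ?_⟩
  rw [mul_assoc]
  rcases r1 with r1 | r1 <;> rcases r2 with r2 | r2 <;>
    simp only [r1, mul_neg, ← mul_assoc, r2, neg_mul, neg_neg, true_or, or_true]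

theorem compat_rf {u : ℕ} (hu : good u = true) : Compat (G u) (rf u) := fun w hw =>
  ⟨act u w, (conj_check' hu hw).1, (moves_rf hu w (good_iff.1 hw).1).2, G_rel hu hw⟩

theorem compat_of_mem {x : M16ˣ × Om} (hx : x ∈ Cov) : Compat (x.1 : M16) x.2.1 := by
  rw [Cov, ← Subgroup.mem_toSubmonoid, Subgroup.closure_toSubmonoid_of_finite] at hx
  induction hx using Submonoid.closure_induction with
  | mem x hx =>
    obtain ⟨p, rfl⟩ := hx
    unfold lift
    split_ifs with h
    · obtain ⟨h1, h2⟩ := Bool.and_eq_true_iff.1 h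
      have := compat_mul (compat_rf h1) (compat_rf h2)
      simpa [atomM, h, atomO, Gu, h1, h2] using this
    · exact compat_one
  | one => exact compat_one
  | mul x y _ _ hx hy => exact compat_mul hx hy

/-- An element of the cover over the identity is one of four scalars. -/
theorem fst_of_snd_eq_one {x : M16ˣ × Om} (hx : x ∈ Cov) (h1 : x.2 = 1) :
    (x.1 : M16) = 1 ∨ (x.1 : M16) = -1 ∨ (x.1 : M16) = omega0 ∨ (x.1 : M16) = -omega0 := by
  have hc := compat_of_mem hx
  set A : M16 := (x.1 : M16) with hA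
  have hinv : IsUnit A := x.1.isUnit
  have hw : ∀ w, good w = true → A * G w = G w * A ∨ A * G w = -(G w * A) := by
    intro w hw
    obtain ⟨z, hz, e1, r⟩ := hc w hw
    rw [h1, OneMemClass.coe_one, OneMemClass.coe_one, Units.val_one, one_mulVec] at e1
    rwa [← bits_inj w (good_iff.1 hw).1 z (good_iff.1 hz).1 e1] at r
  have hax : ∀ k : Fin 8, ∃ b : Bool, A * GA k = sg b • (GA k * A) := fun k => by
    rcases hw _ (axes_good k) with h | h <;> rw [axes_G] at h
    · exact ⟨true, by simpa [sg] using h⟩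
    · exact ⟨false, by simpa [sg] using h⟩
  choose e he using hax
  have hall : ∀ v ∈ signVecs,
      (∀ k, cf v k * sg (e k) = cf v k) ∨ (∀ k, cf v k * sg (e k) = -cf v k) := by
    intro v hv
    have key : A * G v = comb (fun k => cf v k * sg (e k)) * A := by
      simp only [G, comb, Finset.mul_sum, Finset.sum_mul, mul_smul_comm, he, smul_smul, smul_mul_assoc]
    rcases hw v (signVecs_good v hv) with h | h
    · have := hinv.mul_right_cancel (key.symm.trans h)
      exact Or.inl fun k => col_zero v hv e k fun i => congrFun (congrFun this i) 0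
    · have := hinv.mul_right_cancel (key.symm.trans (h.trans (Matrix.neg_mul (G v) A).symm))
      refine Or.inr fun k => ?_
      have h' := col_zero v hv (fun k => !e k) k (fun i => by
        have hn : (fun k => cf v k * sg (!e k)) = (-1 : ZMod 3) • fun k => cf v k * sg (e k) := by
          funext k
          have hsn : sg (!e k) = -sg (e k) := by cases e k <;> simp [sg]
          rw [Pi.smul_apply, smul_eq_mul, hsn, mul_neg, neg_one_mul]
        have hm : comb (fun k => cf v k * sg (!e k)) = comb (cf v) := by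
          rw [hn, comb_smul, this, neg_one_smul, neg_neg, G]
        exact congrFun (congrFun hm i) 0)
      have hsn : sg (!e k) = -sg (e k) := by cases e k <;> simp [sg]
      rw [hsn, mul_neg] at h'
      exact neg_eq_iff_eq_neg.1 h'
  have hsg := signs_global e hall
  have hfin : ∀ B : M16, IsUnit B → (∀ k, B * GA k = GA k * B) → B = 1 ∨ B = -1 := by
    intro B hB hcomm
    have hscal := scalar_of_commute hcomm
    have h00 : B 0 0 ≠ 0 := fun h => by
      obtain ⟨C, hC⟩ := hB.exists_right_inv
      rw [hscal, h, zero_smul, zero_mul] at hC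
      exact absurd (congrFun (congrFun hC 0) 0) (by simp)
    rcases sign_cases _ h00 with h | h
    · exact Or.inl (by rw [hscal, h, one_smul])
    · exact Or.inr (by rw [hscal, h, neg_one_smul])
  obtain ⟨hw2, hwa⟩ := omega_facts
  cases he0 : e 0
  · have hcomm : ∀ k, A * omega0 * GA k = GA k * (A * omega0) := fun k => by
      rw [mul_assoc, hwa, mul_neg, ← mul_assoc, he k, hsg k, he0]
      simp [sg, mul_assoc]
    have hu : IsUnit (A * omega0) := hinv.mul ⟨⟨omega0, omega0, hw2, hw2⟩, rfl⟩
    rcases hfin _ hu hcomm with h | h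
    · refine Or.inr (Or.inr (Or.inl ?_))
      rw [← mul_one A, ← hw2, ← mul_assoc, h, one_mul]
    · refine Or.inr (Or.inr (Or.inr ?_))
      rw [← mul_one A, ← hw2, ← mul_assoc, h, neg_one_mul]
  · have hcomm : ∀ k, A * GA k = GA k * A := fun k => by simp [he k, hsg k, he0, sg]
    rcases hfin _ hinv hcomm with h | h
    · exact Or.inl h
    · exact Or.inr (Or.inl h)

/-- The map onto the simple group. -/
noncomputable def proj : ↥Cov →* Q :=
  (QuotientGroup.mk' (Subgroup.center Om)).comp ((MonoidHom.snd M16ˣ Om).comp Cov.subtype)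

theorem proj_surjective : Function.Surjective proj := by
  have htop : Cov.map (MonoidHom.snd M16ˣ Om) = ⊤ := eltM_range_generates _ fun p =>
    ⟨lift p, Subgroup.subset_closure ⟨p, rfl⟩, by
      unfold lift
      split_ifs with h
      · rfl
      · simp [atomM, h]⟩
  intro q
  obtain ⟨g, rfl⟩ := QuotientGroup.mk'_surjective _ q
  obtain ⟨x, hx, rfl⟩ : g ∈ Cov.map (MonoidHom.snd M16ˣ Om) := htop ▸ Subgroup.mem_top g
  exact ⟨⟨x, hx⟩, rfl⟩

theorem ker_cases {y : ↥Cov} (hy : y ∈ proj.ker) : y.1.2 = 1 ∧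
    ((y.1.1 : M16) = 1 ∨ (y.1.1 : M16) = -1 ∨ (y.1.1 : M16) = omega0 ∨ (y.1.1 : M16) = -omega0) := by
  have h : y.1.2 ∈ Subgroup.center Om := (QuotientGroup.eq_one_iff _).1 hy
  rw [center_eq_bot, Subgroup.mem_bot] at h
  exact ⟨h, fst_of_snd_eq_one y.2 h⟩

theorem axis_pairs : ∀ a b : Fin 8, goodPair (256 * axes.getD a.1 0 + axes.getD b.1 0) = true ∧
    (256 * axes.getD a.1 0 + axes.getD b.1 0) / 256 % 256 = axes.getD a.1 0 ∧
    (256 * axes.getD a.1 0 + axes.getD b.1 0) % 256 = axes.getD b.1 0 := by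
  decide

/-- The lift of a pair of axes in the cover. -/
noncomputable def axPair (a b : Fin 8) : ↥Cov :=
  ⟨lift (256 * axes.getD a.1 0 + axes.getD b.1 0), Subgroup.subset_closure ⟨_, rfl⟩⟩

theorem axPair_fst (a b : Fin 8) : ((axPair a b).1.1 : M16) = GA a * GA b := by
  obtain ⟨h, h1, h2⟩ := axis_pairs a b
  simp only [axPair, lift, if_pos h, h1, h2]
  rw [Units.val_mul, Gu, Gu, dif_pos (axes_good a), dif_pos (axes_good b)]
  show G (axes.getD a.1 0) * G (axes.getD b.1 0) = _
  rw [axes_G, axes_G]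

theorem axPair_snd (a b : Fin 8) : (axPair a b).1.2 = eltM [256 * axes.getD a.1 0 + axes.getD b.1 0] := by
  show (lift (256 * axes.getD a.1 0 + axes.getD b.1 0)).2 = _
  rw [lift, if_pos (axis_pairs a b).1, eltM, List.map_cons, List.map_nil, List.prod_cons, List.prod_nil, mul_one]

/-- The lift of a word in the cover. -/
noncomputable def liftWord (w : List ℕ) : ↥Cov :=
  (w.map fun p => (⟨lift p, Subgroup.subset_closure ⟨p, rfl⟩⟩ : ↥Cov)).prod

theorem moveA_good : moveA.all goodPair = true ∧ moveB.all goodPair = true := by decide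

theorem liftWord_spec : ∀ w : List ℕ, w.all goodPair = true →
    ((liftWord w).1.1 : M16) = wordG w ∧ (liftWord w).1.2 = eltM w
  | [], _ => ⟨rfl, rfl⟩
  | p :: w, h => by
    simp only [List.all_cons, Bool.and_eq_true] at h
    obtain ⟨i1, i2⟩ := liftWord_spec w h.2
    obtain ⟨h1, h2⟩ := Bool.and_eq_true_iff.1 h.1
    simp only [liftWord, wordG, eltM, List.map_cons, List.prod_cons] at i1 i2 ⊢
    rw [Subgroup.coe_mul, Prod.fst_mul, Prod.snd_mul, Units.val_mul, i1, i2]
    simp [lift, h.1, Gu, h1, h2]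

/-- The scalar minus one in the cover is a commutator. -/
theorem exists_minus : ∃ z ∈ commutator ↥Cov, (z.1.1 : M16) = -1 ∧ z.1.2 = 1 := by
  obtain ⟨-, -, -, hanti, -, -⟩ := move_checks
  obtain ⟨-, -, hcom, -, -, -⟩ := move_images
  refine ⟨⁅axPair 0 1, axPair 1 2⁆, ?_, ?_, ?_⟩
  · rw [commutator_def]
    exact Subgroup.commutator_mem_commutator (Subgroup.mem_top _) (Subgroup.mem_top _)
  · have hu : axPair 0 1 * axPair 1 2 * (axPair 0 1)⁻¹ * (axPair 1 2)⁻¹ =
        axPair 0 1 * axPair 1 2 * (axPair 1 2 * axPair 0 1)⁻¹ := by group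
    rw [commutatorElement_def, hu, Subgroup.coe_mul, Prod.fst_mul, Units.val_mul, Subgroup.coe_inv,
      Prod.fst_inv, Units.mul_inv_eq_iff_eq_mul, Subgroup.coe_mul, Subgroup.coe_mul, Prod.fst_mul, Prod.fst_mul,
      Units.val_mul, Units.val_mul, axPair_fst, axPair_fst, hanti, neg_one_mul]
  · rw [commutatorElement_def, Subgroup.coe_mul, Subgroup.coe_mul, Subgroup.coe_mul, Subgroup.coe_inv,
      Subgroup.coe_inv, Prod.snd_mul, Prod.snd_mul, Prod.snd_mul, Prod.snd_inv, Prod.snd_inv, axPair_snd, axPair_snd]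
    rw [mul_inv_eq_one, mul_inv_eq_iff_eq_mul, ← eltM_append, ← eltM_append]
    exact same_spec hcom

theorem comm_of_move {a b c d : Fin 8} {g : List ℕ} (hg : g.all goodPair = true)
    (h : wordG g * (GA a * GA b) = (GA c * GA d) * wordG g ∨
      wordG g * (GA a * GA b) = -((GA c * GA d) * wordG g))
    (hs : same (g ++ [256 * axes.getD a.1 0 + axes.getD b.1 0])
      ([256 * axes.getD c.1 0 + axes.getD d.1 0] ++ g) = true)
    (hsq : (GA a * GA b) * (GA a * GA b) = -1)
    (hsq' : same ([256 * axes.getD a.1 0 + axes.getD b.1 0] ++ [256 * axes.getD a.1 0 + axes.getD b.1 0]) [] = true) :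
    ((⁅liftWord g, axPair a b⁆.1.1 : M16) = (GA c * GA d) * -(GA a * GA b) ∨
      (⁅liftWord g, axPair a b⁆.1.1 : M16) = -((GA c * GA d) * -(GA a * GA b))) ∧
    ⁅liftWord g, axPair a b⁆.1.2 = eltM ([256 * axes.getD c.1 0 + axes.getD d.1 0] ++
      [256 * axes.getD a.1 0 + axes.getD b.1 0]) := by
  obtain ⟨g1, g2⟩ := liftWord_spec g hg
  constructor
  · have hX : (((axPair a b).1.1)⁻¹ : M16ˣ).1 = -(GA a * GA b) := by
      refine Units.inv_eq_of_mul_eq_one_right ?_
      rw [axPair_fst, mul_neg, hsq, neg_neg]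
    rw [commutatorElement_def, Subgroup.coe_mul, Subgroup.coe_mul, Subgroup.coe_mul, Subgroup.coe_inv,
      Subgroup.coe_inv, Prod.fst_mul, Prod.fst_mul, Prod.fst_mul, Prod.fst_inv, Prod.fst_inv, Units.val_mul,
      Units.val_mul, Units.val_mul, g1, axPair_fst, hX]
    rcases h with h | h
    · left
      rw [h, ← g1, Units.mul_inv_cancel_right]
    · right
      rw [h, ← g1, neg_mul, Units.mul_inv_cancel_right, neg_mul]
  · have hY : (axPair a b).1.2⁻¹ = eltM [256 * axes.getD a.1 0 + axes.getD b.1 0] := by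
      rw [axPair_snd]
      exact inv_eq_of_mul_eq_one_right (by rw [← eltM_append, same_spec hsq']; rfl)
    rw [commutatorElement_def, Subgroup.coe_mul, Subgroup.coe_mul, Subgroup.coe_mul, Subgroup.coe_inv,
      Subgroup.coe_inv, Prod.snd_mul, Prod.snd_mul, Prod.snd_mul, Prod.snd_inv, Prod.snd_inv, hY, g2, axPair_snd,
      ← eltM_append g, same_spec hs, eltM_append _ g, mul_inv_cancel_right, ← eltM_append]

/-- The volume element, up to sign, is a product of commutators of the cover. -/
theorem exists_omega : ∃ z ∈ commutator ↥Cov,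
    ((z.1.1 : M16) = omega0 ∨ (z.1.1 : M16) = -omega0) ∧ z.1.2 = 1 := by
  obtain ⟨hA, hB, hprod, -, hsqA, hsqB⟩ := move_checks
  obtain ⟨sA, sB, -, hall, qA, qB⟩ := move_images
  obtain ⟨a1, a2⟩ := comm_of_move (a := 0) (b := 1) (c := 2) (d := 3) moveA_good.1 hA sA hsqA qA
  obtain ⟨b1, b2⟩ := comm_of_move (a := 4) (b := 5) (c := 6) (d := 7) moveA_good.2 hB sB hsqB qB
  refine ⟨⁅liftWord moveA, axPair 0 1⁆ * ⁅liftWord moveB, axPair 4 5⁆, ?_, ?_, ?_⟩
  · rw [commutator_def]
    exact mul_mem (Subgroup.commutator_mem_commutator (Subgroup.mem_top _) (Subgroup.mem_top _))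
      (Subgroup.commutator_mem_commutator (Subgroup.mem_top _) (Subgroup.mem_top _))
  · rw [Subgroup.coe_mul, Prod.fst_mul, Units.val_mul]
    rcases a1 with a1 | a1 <;> rcases b1 with b1 | b1 <;> rw [a1, b1]
    · exact Or.inl hprod
    · exact Or.inr (by rw [mul_neg ((GA 2 * GA 3) * -(GA 0 * GA 1)), hprod])
    · exact Or.inr (by rw [neg_mul, hprod])
    · exact Or.inl (by rw [neg_mul_neg, hprod])
  · rw [Subgroup.coe_mul, Prod.snd_mul, a2, b2, ← eltM_append, ← List.append_assoc]
    exact same_spec hall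

theorem exists_cover : ∃ (Γ : Type) (_ : Group Γ) (_ : Finite Γ) (σ : Γ →* Q),
    Cfsg.IsStemExtension σ ∧ Nat.card σ.ker = 4 ∧ ∀ y ∈ σ.ker, y * y = 1 := by
  obtain ⟨z, hz, hz1, hz2⟩ := exists_minus
  obtain ⟨w, hw, hw1, hw2⟩ := exists_omega
  obtain ⟨hsq, -⟩ := omega_facts
  have hlist : ∀ y ∈ proj.ker, y = 1 ∨ y = z ∨ y = w ∨ y = z * w := by
    intro y hy
    obtain ⟨h2, h1⟩ := ker_cases hy
    have hext : ∀ u : ↥Cov, (y.1.1 : M16) = u.1.1 → u.1.2 = 1 → y = u := fun u e e' =>
      Subtype.ext (Prod.ext (Units.ext e) (h2.trans e'.symm))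
    have hzw : ((z * w).1.1 : M16) = -(w.1.1 : M16) ∧ (z * w).1.2 = 1 := by
      rw [Subgroup.coe_mul, Prod.fst_mul, Prod.snd_mul, Units.val_mul, hz1, hz2, hw2, neg_one_mul, mul_one]
      exact ⟨rfl, rfl⟩
    rcases h1 with h | h | h | h
    · exact Or.inl (hext 1 (by simpa using h) rfl)
    · exact Or.inr (Or.inl (hext z (h.trans hz1.symm) hz2))
    · rcases hw1 with hw1 | hw1
      · exact Or.inr (Or.inr (Or.inl (hext w (h.trans hw1.symm) hw2)))
      · exact Or.inr (Or.inr (Or.inr (hext _ (by rw [hzw.1, hw1, neg_neg, h]) hzw.2)))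
    · rcases hw1 with hw1 | hw1
      · exact Or.inr (Or.inr (Or.inr (hext _ (by rw [hzw.1, hw1, h]) hzw.2)))
      · exact Or.inr (Or.inr (Or.inl (hext w (h.trans hw1.symm) hw2)))
  have hmem : ∀ y ∈ ({1, z, w, z * w} : Set ↥Cov), y ∈ proj.ker := by
    have hm : ∀ y : ↥Cov, y.1.2 = 1 → y ∈ proj.ker := fun y hy => by
      rw [MonoidHom.mem_ker]
      show QuotientGroup.mk' _ y.1.2 = 1
      rw [hy, map_one]
    have h1 := hm z hz2
    have h2 := hm w hw2
    rintro y (rfl | rfl | rfl | rfl)
    exacts [one_mem _, h1, h2, mul_mem h1 h2]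
  have hcent : ∀ y ∈ proj.ker, ∀ u : ↥Cov, u * y = y * u := by
    intro y hy u
    obtain ⟨h2, h1⟩ := ker_cases hy
    refine Subtype.ext (Prod.ext (Units.ext ?_) (by simp [h2]))
    have hu : (u.1.1 : M16) * omega0 = omega0 * u.1.1 := by
      obtain ⟨x, hx⟩ := u
      show (x.1 : M16) * omega0 = omega0 * x.1
      rw [Cov, ← Subgroup.mem_toSubmonoid, Subgroup.closure_toSubmonoid_of_finite] at hx
      induction hx using Submonoid.closure_induction with
      | mem x hx =>
        obtain ⟨p, rfl⟩ := hx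
        unfold lift
        split_ifs with h
        · obtain ⟨ha, hb⟩ := Bool.and_eq_true_iff.1 h
          have hG : ∀ v, omega0 * G v = -(G v * omega0) := fun v => by
            simp [G, comb, Finset.mul_sum, Finset.sum_mul, omega_facts.2]
          simp only [Units.val_mul, Gu, ha, hb, dite_true]
          rw [← mul_assoc omega0, hG, neg_mul, mul_assoc _ omega0, hG, mul_neg, neg_neg, mul_assoc]
        · simp
      | one => simp
      | mul a b _ _ iha ihb =>
        simp only [Prod.fst_mul, Units.val_mul]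
        rw [mul_assoc, ihb, ← mul_assoc, iha, mul_assoc]
    rw [Subgroup.coe_mul, Subgroup.coe_mul, Prod.fst_mul, Prod.fst_mul, Units.val_mul, Units.val_mul]
    rcases h1 with h | h | h | h
    · rw [h, mul_one, one_mul]
    · rw [h, mul_neg, mul_one, neg_one_mul]
    · rw [h, hu]
    · rw [h, Matrix.mul_neg, Matrix.neg_mul, hu]
  have hset : (proj.ker : Set ↥Cov) = {1, z, w, z * w} :=
    Set.ext fun y => ⟨fun h => by rcases hlist y h with h | h | h | h <;> simp [h], hmem y⟩
  refine ⟨↥Cov, inferInstance, inferInstance, proj, ⟨proj_surjective, ?_, ?_⟩, ?_, ?_⟩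
  · exact fun y hy => Subgroup.mem_center_iff.2 fun u => hcent y hy u
  · intro y hy
    rcases hlist y hy with rfl | rfl | rfl | rfl
    exacts [one_mem _, hz, hw, mul_mem hz hw]
  · have hne : ∀ {a b : ↥Cov}, (a.1.1 : M16) ≠ b.1.1 → a ≠ b := fun h e => h (e ▸ rfl)
    have hd := omega_distinct
    obtain ⟨d1, d2, d3, d4, d5, d6⟩ := hd
    have e1 : ((1 : ↥Cov).1.1 : M16) = 1 := rfl
    have e2 : ((z * w).1.1 : M16) = -(w.1.1 : M16) := by
      rw [Subgroup.coe_mul, Prod.fst_mul, Units.val_mul, hz1, neg_one_mul]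
    have n1 : (1 : ↥Cov) ∉ ({z, w, z * w} : Set ↥Cov) := by
      rintro (h | h | h) <;> refine hne ?_ h <;> simp only [e1, e2, hz1] <;>
        rcases hw1 with hw1 | hw1 <;> simp [hw1, d1, d2.symm, d4.symm]
    have n2 : z ∉ ({w, z * w} : Set ↥Cov) := by
      rintro (h | h) <;> refine hne ?_ h <;> simp only [e2, hz1] <;>
        rcases hw1 with hw1 | hw1 <;> simp [hw1, d3.symm, d5.symm]
    have n3 : w ≠ z * w := hne (by
      rw [e2]
      rcases hw1 with hw1 | hw1 <;> rw [hw1]
      · exact d6
      · rw [neg_neg]; exact d6.symm)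
    rw [show Nat.card proj.ker = Nat.card ({1, z, w, z * w} : Set ↥Cov) from Nat.card_congr (Equiv.setCongr hset),
      Nat.card_coe_set_eq, Set.ncard_insert_of_notMem n1, Set.ncard_insert_of_notMem n2, Set.ncard_pair n3]
  · intro y hy
    obtain ⟨h2, h1⟩ := ker_cases hy
    refine Subtype.ext (Prod.ext (Units.ext ?_) (by simp [h2]))
    rw [Subgroup.coe_mul, Prod.fst_mul, Units.val_mul]
    rcases h1 with h | h | h | h <;> simp [h, hsq]

end Cfsg.Agent.Lib.SchurMult.PlusEight
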