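import Cfsg.Agent.Lib.SchurMult.PlusEight.Model

/-! Kernel checks on the matrices of degree sixteen attached to the axes. -/

set_option autoImplicit false
set_option maxRecDepth 100000

namespace Cfsg.Agent.Lib.SchurMult.PlusEight

open Matrix

/-- The matrices of degree sixteen. -/
abbrev M16 := Matrix (Fin 16) (Fin 16) (ZMod 3)

/-- The matrix of an axis. -/
def GA (k : Fin 8) : M16 := Matrix.of fun i j =>
  let e := (monos.getD k.1 []).getD j.1 (0, 0)
  bif Nat.beq e.1 i.1 then (e.2 : ZMod 3) else 0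

/-- The coefficients of a vector on the axes. -/
def cf (v : ℕ) : Fin 8 → ZMod 3 := fun k => (((coefs.getD v []).getD k.1 0 : ℕ) : ZMod 3)

/-- A combination of the axis matrices. -/
def comb (c : Fin 8 → ZMod 3) : M16 := ∑ k, c k • GA k

/-- The matrix attached to a vector. -/
def G (v : ℕ) : M16 := comb (cf v)

theorem axes_sq : ∀ k, GA k * GA k = -1 := by decide +kernel

theorem axes_anti : ∀ k l, k ≠ l → GA k * GA l + GA l * GA k = 0 := by decide +kernel

/-- The scalar product of coefficients. -/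
def dot (c d : Fin 8 → ZMod 3) : ZMod 3 := ∑ k, c k * d k

theorem coef_check : allGood (fun u => decide (dot (cf u) (cf u) = 1) &&
    allGood fun w => decide (∀ k, cf (act u w) k = cf w k - 2 * dot (cf w) (cf u) * cf u k) ||
      decide (∀ k, cf (act u w) k = -(cf w k - 2 * dot (cf w) (cf u) * cf u k))) = true := by
  decide +kernel

/-- A sign from a truth value. -/
def sg (b : Bool) : ZMod 3 := bif b then 1 else -1

theorem signs_global : ∀ e : Fin 8 → Bool,
    (∀ v ∈ signVecs, (∀ k, cf v k * sg (e k) = cf v k) ∨ (∀ k, cf v k * sg (e k) = -cf v k)) →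
    ∀ k, e k = e 0 := by
  decide +kernel

/-- A product of axis matrices. -/
def wordA (l : List (Fin 8)) : M16 := (l.map GA).prod

theorem diag_check : diagWords.all (fun l => (List.finRange 16).all fun i => decide (∀ j : Fin 16, i ≠ j → wordA l i j = 0)) = true := by
  decide +kernel

theorem diag_words : ∀ l ∈ diagWords, ∀ i j : Fin 16, i ≠ j → wordA l i j = 0 := fun l hl i =>
  of_decide_eq_true (List.all_eq_true.1 (List.all_eq_true.1 diag_check l hl) i (List.mem_finRange i))

theorem sep_words : ∀ j : Fin 16, j ≠ 0 →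
    sepWords.getD j.1 [] ∈ diagWords ∧ wordA (sepWords.getD j.1 []) j j ≠ wordA (sepWords.getD j.1 []) 0 0 := by
  decide +kernel

theorem col_words : ∀ l j : Fin 16, (j = l → wordA (colWords.getD l.1 []) j 0 ≠ 0) ∧
    (j ≠ l → wordA (colWords.getD l.1 []) j 0 = 0) := by
  decide +kernel

/-- The volume element. -/
def omega0 : M16 := wordA [0, 1, 2, 3, 4, 5, 6, 7]

theorem omega_facts : omega0 * omega0 = 1 ∧ (∀ k, omega0 * GA k = -(GA k * omega0)) := by decide +kernel

/-- The matrix of a word of pair codes. -/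
def wordG (w : List ℕ) : M16 := (w.map fun p => G (p / 256 % 256) * G (p % 256)).prod

theorem move_checks :
    (wordG moveA * (GA 0 * GA 1) = (GA 2 * GA 3) * wordG moveA ∨
      wordG moveA * (GA 0 * GA 1) = -((GA 2 * GA 3) * wordG moveA)) ∧
    (wordG moveB * (GA 4 * GA 5) = (GA 6 * GA 7) * wordG moveB ∨
      wordG moveB * (GA 4 * GA 5) = -((GA 6 * GA 7) * wordG moveB)) ∧
    (GA 2 * GA 3) * -(GA 0 * GA 1) * ((GA 6 * GA 7) * -(GA 4 * GA 5)) = omega0 ∧
    (GA 0 * GA 1) * (GA 1 * GA 2) = -((GA 1 * GA 2) * (GA 0 * GA 1)) ∧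
    (GA 0 * GA 1) * (GA 0 * GA 1) = -1 ∧ (GA 4 * GA 5) * (GA 4 * GA 5) = -1 := by
  decide +kernel

theorem move_images :
    same (moveA ++ [256 * axes.getD 0 0 + axes.getD 1 0]) ([256 * axes.getD 2 0 + axes.getD 3 0] ++ moveA) = true ∧
    same (moveB ++ [256 * axes.getD 4 0 + axes.getD 5 0]) ([256 * axes.getD 6 0 + axes.getD 7 0] ++ moveB) = true ∧
    same ([256 * axes.getD 0 0 + axes.getD 1 0] ++ [256 * axes.getD 1 0 + axes.getD 2 0])
      ([256 * axes.getD 1 0 + axes.getD 2 0] ++ [256 * axes.getD 0 0 + axes.getD 1 0]) = true ∧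
    same ([256 * axes.getD 2 0 + axes.getD 3 0] ++ [256 * axes.getD 0 0 + axes.getD 1 0] ++
      [256 * axes.getD 6 0 + axes.getD 7 0] ++ [256 * axes.getD 4 0 + axes.getD 5 0]) [] = true ∧
    same ([256 * axes.getD 0 0 + axes.getD 1 0] ++ [256 * axes.getD 0 0 + axes.getD 1 0]) [] = true ∧
    same ([256 * axes.getD 4 0 + axes.getD 5 0] ++ [256 * axes.getD 4 0 + axes.getD 5 0]) [] = true := by
  decide +kernel

theorem col_witness : ∀ k : Fin 8, ∃ i : Fin 16, GA k i 0 ≠ 0 ∧ ∀ l, l ≠ k → GA l i 0 = 0 := by decide +kernel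

theorem omega_distinct : (1 : M16) ≠ -1 ∧ omega0 ≠ 1 ∧ omega0 ≠ -1 ∧ -omega0 ≠ 1 ∧ -omega0 ≠ -1 ∧ omega0 ≠ -omega0 := by
  decide +kernel

end Cfsg.Agent.Lib.SchurMult.PlusEight
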