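import Cfsg.Agent.Lib.SchurMult.PlusEight.Bound
import Cfsg.Agent.Lib.SchurMult.PlusEight.Cover
import Cfsg.Agent.Lib.SchurMult.PlusEight.Congr

/-!
The multiplier of the orthogonal group of plus type and dimension eight over two elements is a four group.
-/

set_option autoImplicit false

namespace Cfsg.Agent.Lib.SchurMult.PlusEight

open Cfsg Cfsg.Agent.Lib

universe u v

theorem hasFour : Cfsg.HasSchurMultiplier Q Klein.V4 := by
  obtain ⟨Γ, _, _, σ, hσ, hcard, hsq⟩ := exists_cover
  refine ⟨⟨Γ, inferInstance, inferInstance, σ, hσ,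
    Klein.exists_mulEquiv hcard fun y => Subtype.ext (hsq y.1 y.2)⟩, fun Δ _ _ τ hτ => exists_surjective hτ⟩

/-- The multiplier statement is carried to an isomorphic group in any universe. -/
theorem hasSchurMultiplier_transport {G : Type} [Group G] {H : Type u} [Group H] (e : G ≃* H)
    {A : Type v} [CommGroup A] (h : Cfsg.HasSchurMultiplier G A) : Cfsg.HasSchurMultiplier H A := by
  obtain ⟨⟨Γ, _, _, σ, hσ, ⟨i⟩⟩, huniv⟩ := h
  constructor
  · let σ' : ULift.{u} Γ →* H := e.toMonoidHom.comp (σ.comp MulEquiv.ulift.toMonoidHom)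
    have hk : ∀ x, x ∈ σ'.ker ↔ x.down ∈ σ.ker := fun x => by
      show e (σ x.down) = 1 ↔ σ x.down = 1
      exact MulEquiv.map_eq_one_iff e
    have hcomm : ∀ x : Γ, x ∈ commutator Γ → (ULift.up.{u} x) ∈ commutator (ULift.{u} Γ) := fun x hx => by
      let f : Γ →* ULift.{u} Γ := MonoidHom.mk' ULift.up fun _ _ => rfl
      have := Subgroup.mem_map_of_mem f hx
      rw [map_commutator_eq] at this
      exact Subgroup.commutator_mono le_top le_top this
    refine ⟨ULift.{u} Γ, inferInstance, inferInstance, σ', ⟨e.surjective.comp (hσ.1.comp ULift.down_surjective),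
      fun x hx => Subgroup.mem_center_iff.2 fun y => ?_, fun x hx => hcomm _ (hσ.2.2 ((hk x).1 hx))⟩, ⟨?_⟩⟩
    · exact ULift.ext _ _ (Subgroup.mem_center_iff.1 (hσ.2.1 ((hk x).1 hx)) y.down)
    · exact MulEquiv.trans
        { toFun := fun x => ⟨x.1.down, (hk x.1).1 x.2⟩
          invFun := fun y => ⟨⟨y.1⟩, (hk _).2 y.2⟩
          left_inv := fun _ => rfl
          right_inv := fun _ => rfl
          map_mul' := fun _ _ => rfl } i
  · intro Δ _ _ τ hτ
    haveI : Small.{0} Δ := Countable.toSmall Δ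
    let d : Shrink.{0} Δ ≃* Δ := Shrink.mulEquiv
    let τ' : Shrink.{0} Δ →* G := e.symm.toMonoidHom.comp (τ.comp d.toMonoidHom)
    have hk : ∀ x, x ∈ τ'.ker ↔ d x ∈ τ.ker := fun x => by
      show e.symm (τ (d x)) = 1 ↔ τ (d x) = 1
      exact MulEquiv.map_eq_one_iff e.symm
    haveI : Finite (Shrink.{0} Δ) := Finite.of_equiv Δ (equivShrink Δ)
    have hst : Cfsg.IsStemExtension τ' := by
      refine ⟨e.symm.surjective.comp (hτ.1.comp d.surjective), fun x hx => ?_, fun x hx => ?_⟩
      · exact Subgroup.mem_center_iff.2 fun y => d.injective (by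
          rw [map_mul, map_mul, Subgroup.mem_center_iff.1 (hτ.2.1 ((hk x).1 hx)) (d y)])
      · have := Subgroup.mem_map_of_mem d.symm.toMonoidHom (hτ.2.2 ((hk x).1 hx))
        rw [map_commutator_eq] at this
        have h2 := Subgroup.commutator_mono le_top le_top this
        rw [← commutator_def] at h2
        simpa using h2
    obtain ⟨π, hπ⟩ := huniv _ τ' hst
    let f : τ'.ker →* τ.ker :=
      MonoidHom.mk' (fun x => ⟨d x.1, (hk x.1).1 x.2⟩) fun a b => Subtype.ext (map_mul d a.1 b.1)
    have hf : Function.Surjective f := fun y =>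
      ⟨⟨d.symm y.1, (hk _).2 (by rw [d.apply_symm_apply]; exact y.2)⟩, Subtype.ext (d.apply_symm_apply _)⟩
    exact ⟨f.comp π, hf.comp hπ⟩

end Cfsg.Agent.Lib.SchurMult.PlusEight
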